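import Mathlib
import Cfsg.Prelude.Def_RootSubgroups
import Cfsg.Agent.H4.BaerSuzuki

set_option autoImplicit false

/-!
# Root involutions I: products, the line lemma
-/

namespace Cfsg.Agent.RI

open Cfsg

variable {G : Type*} [Group G] {D : Set G}

/-- different members with product of odd order -/
def Od (a b : G) : Prop := a ≠ b ∧ Odd (orderOf (a * b))

/-- product of order 4 -/
def Fr (a b : G) : Prop := orderOf (a * b) = 4

theorem sq (hD : IsRootInvolutionSet D) {a : G} (ha : a ∈ D) : a * a = 1 := by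
  have h := hD.orderOf_eq a ha
  have h2 := pow_orderOf_eq_one a
  rwa [h, pow_two] at h2

theorem sqx (hD : IsRootInvolutionSet D) {a : G} (ha : a ∈ D) (x : G) : a * (a * x) = x := by
  rw [← mul_assoc, sq hD ha, one_mul]

theorem inv_eq (hD : IsRootInvolutionSet D) {a : G} (ha : a ∈ D) : a⁻¹ = a :=
  inv_eq_of_mul_eq_one_right (sq hD ha)

theorem ne_one (hD : IsRootInvolutionSet D) {a : G} (ha : a ∈ D) : a ≠ 1 := by
  rintro rfl
  have := hD.orderOf_eq 1 ha
  simp at this

theorem cj (hD : IsRootInvolutionSet D) {a x : G} (ha : a ∈ D) (hx : x ∈ D) : x * a * x ∈ D := by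
  have := hD.conj_mem a ha x
  rwa [inv_eq hD hx] at this

theorem one_of_odd {x : G} (h : Odd (orderOf x)) {k : ℕ} (hk : x ^ (2 ^ k) = 1) : x = 1 := by
  rw [← orderOf_eq_one_iff]
  have h1 := orderOf_dvd_of_pow_eq_one hk
  have h2 : Nat.Coprime (orderOf x) (2 ^ k) := Nat.Coprime.pow_right _ (Nat.coprime_two_right.mpr h)
  exact Nat.eq_one_of_self_dvd_coprime h2 h1
  where
  Nat.eq_one_of_self_dvd_coprime {a b : ℕ} (h : Nat.Coprime a b) (h' : a ∣ b) : a = 1 := by
    have := Nat.Coprime.eq_one_of_dvd h h'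
    exact this

theorem one_of_odd_sq {x : G} (h : Odd (orderOf x)) (hk : x * x = 1) : x = 1 :=
  one_of_odd h (k := 1) (by rwa [pow_one, pow_two])

theorem trich (hD : IsRootInvolutionSet D) {a b : G} (ha : a ∈ D) (hb : b ∈ D) :
    Commute a b ∨ Od a b ∨ Fr a b := by
  rcases hD.pair a ha b hb with h | h | h
  · exact Or.inl h
  · by_cases hab : a = b
    · left; rw [hab]
    · right; left; exact ⟨hab, h⟩
  · right; right; exact h.1

theorem Od.not_comm (hD : IsRootInvolutionSet D) {a b : G} (ha : a ∈ D) (hb : b ∈ D) (h : Od a b) : ¬ Commute a b := by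
  intro hc
  have h2 : (a * b) * (a * b) = 1 := by
    rw [hc.eq, mul_assoc, ← mul_assoc a b, hc.eq, mul_assoc, sq hD ha, mul_one, sq hD hb]
  have h3 := one_of_odd_sq h.2 h2
  apply h.1
  have := eq_inv_of_mul_eq_one_left h3
  rwa [inv_eq hD hb] at this

theorem Fr.not_comm (hD : IsRootInvolutionSet D) {a b : G} (ha : a ∈ D) (hb : b ∈ D) (h : Fr a b) : ¬ Commute a b := by
  intro hc
  have h2 : (a * b) ^ 2 = 1 := by
    rw [pow_two, hc.eq, mul_assoc, ← mul_assoc a b, hc.eq, mul_assoc, sq hD ha, mul_one, sq hD hb]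
  have h3 := orderOf_dvd_of_pow_eq_one h2
  rw [h] at h3
  omega

theorem Fr.not_od {a b : G} (h : Fr a b) : ¬ Od a b := by
  intro h2
  have := h2.2
  rw [h] at this
  exact absurd this (by decide)

theorem Od.symm (hD : IsRootInvolutionSet D) {a b : G} (ha : a ∈ D) (hb : b ∈ D) (h : Od a b) : Od b a := by
  refine ⟨h.1.symm, ?_⟩
  have : b * a = (a * b)⁻¹ := by rw [mul_inv_rev, inv_eq hD ha, inv_eq hD hb]
  rw [this, orderOf_inv]; exact h.2

theorem Fr.symm (hD : IsRootInvolutionSet D) {a b : G} (ha : a ∈ D) (hb : b ∈ D) (h : Fr a b) : Fr b a := by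
  have : b * a = (a * b)⁻¹ := by rw [mul_inv_rev, inv_eq hD ha, inv_eq hD hb]
  show orderOf (b * a) = 4
  rw [this, orderOf_inv]; exact h

theorem orderOf_conj' (g x : G) : orderOf (g * x * g⁻¹) = orderOf x := by
  have : g * x * g⁻¹ = (MulAut.conj g) x := rfl
  rw [this, MulEquiv.orderOf_eq]

theorem Od.conj {a b : G} (g : G) (h : Od a b) : Od (g * a * g⁻¹) (g * b * g⁻¹) := by
  refine ⟨fun h2 => h.1 ?_, ?_⟩
  · simpa using h2
  · have : g * a * g⁻¹ * (g * b * g⁻¹) = g * (a * b) * g⁻¹ := by group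
    rw [this, orderOf_conj']; exact h.2

theorem Fr.conj {a b : G} (g : G) (h : Fr a b) : Fr (g * a * g⁻¹) (g * b * g⁻¹) := by
  have : g * a * g⁻¹ * (g * b * g⁻¹) = g * (a * b) * g⁻¹ := by group
  show orderOf _ = 4
  rw [this, orderOf_conj']; exact h

theorem Od.conj_iff {a b : G} (g : G) : Od (g * a * g⁻¹) (g * b * g⁻¹) ↔ Od a b := by
  refine ⟨fun h => ?_, fun h => h.conj g⟩
  have := h.conj g⁻¹
  have e1 : g⁻¹ * (g * a * g⁻¹) * g⁻¹⁻¹ = a := by group
  have e2 : g⁻¹ * (g * b * g⁻¹) * g⁻¹⁻¹ = b := by group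
  rwa [e1, e2] at this

/-- the commutator of a pair with product of order 4 -/
theorem four (hD : IsRootInvolutionSet D) {a b : G} (ha : a ∈ D) (hb : b ∈ D) (h : Fr a b) :
    a * b * a * b ∈ D ∧ Commute (a * b * a * b) a ∧ Commute (a * b * a * b) b ∧ b * a * b = a * (a * b * a * b) ∧
      a * b * a = b * (a * b * a * b) := by
  have e : (a * b) ^ 2 = a * b * a * b := by rw [pow_two]; group
  have hz : (a * b) ^ 2 ∈ D := by
    rcases hD.pair a ha b hb with h1 | h1 | h1
    · exact absurd h1 (h.not_comm hD ha hb)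
    · rw [show orderOf (a * b) = 4 from h] at h1
      exact absurd h1 (by decide)
    · exact h1.2
  rw [e] at hz
  have h4 : (a * b * a * b) * (a * b * a * b) = 1 := sq hD hz
  have haa := sq hD ha
  have hbb := sq hD hb
  have h5 : (a * b * a * b) = b * a * b * a := by
    have : (a * b * a * b)⁻¹ = a * b * a * b := inv_eq hD hz
    rw [← this]
    simp only [mul_inv_rev, inv_eq hD ha, inv_eq hD hb, mul_assoc]
  refine ⟨hz, ?_, ?_, ?_, ?_⟩
  · show a * b * a * b * a = a * (a * b * a * b)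
    conv_lhs => rw [h5]
    simp only [mul_assoc, haa, mul_one, sqx hD ha]
  · show a * b * a * b * b = b * (a * b * a * b)
    conv_rhs => rw [h5]
    simp only [mul_assoc, hbb, mul_one, sqx hD hb]
  · simp only [mul_assoc, sqx hD ha]
  · rw [h5]; simp only [mul_assoc, sqx hD hb]

/-- the element conjugating a to b -/
theorem Od.conj_elt (hD : IsRootInvolutionSet D) {a b : G} (ha : a ∈ D) (hb : b ∈ D) (h : Od a b) :
    ∃ k : ℕ, (a * b) ^ k * a * ((a * b) ^ k)⁻¹ = b := by
  obtain ⟨k, hk⟩ := h.2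
  refine ⟨k, ?_⟩
  have hinv : ∀ j : ℕ, a * (a * b) ^ j = ((a * b) ^ j)⁻¹ * a := by
    intro j
    have h1 : a * (a * b) * a⁻¹ = (a * b)⁻¹ := by
      rw [mul_inv_rev, inv_eq hD ha, inv_eq hD hb]
      simp only [mul_assoc, sqx hD ha]
    have h2 : a * (a * b) ^ j * a⁻¹ = ((a * b)⁻¹) ^ j := by
      rw [← conj_pow, h1]
    rw [inv_pow] at h2
    rw [← h2]; group
  have h1 : a * ((a * b) ^ k)⁻¹ = (a * b) ^ k * a := by
    have := hinv k
    have h2 : (a * b) ^ k * (a * (a * b) ^ k) = a := by rw [this]; group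
    calc a * ((a * b) ^ k)⁻¹ = (a * b) ^ k * (a * (a * b) ^ k) * ((a * b) ^ k)⁻¹ := by rw [h2]
      _ = (a * b) ^ k * a := by group
  rw [mul_assoc, h1, ← mul_assoc, ← pow_add]
  have h3 : (a * b) ^ (k + k + 1) = 1 := by
    have h4 := pow_orderOf_eq_one (a * b)
    rw [hk] at h4
    have : 2 * k + 1 = k + k + 1 := by ring
    rwa [this] at h4
  rw [pow_succ] at h3
  have h4 : (a * b) ^ (k + k) = (a * b)⁻¹ := eq_inv_of_mul_eq_one_left h3
  rw [h4, mul_inv_rev, inv_eq hD ha, inv_eq hD hb, mul_assoc, sq hD ha, mul_one]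

/-- If d, a have product of odd order and c commutes with d and a, and ac, d ∈ D: contradiction -/
theorem line_aux (hD : IsRootInvolutionSet D) {a c d e : G} (ha : a ∈ D) (hd : d ∈ D) (he : e ∈ D)
    (h : Od d a) (hc2 : c * c = 1) (hc1 : c ≠ 1) (hca : Commute c a) (hcd : Commute c d) (hee : e = a * c) : False := by
  have hcda : Commute (d * a) c := (Commute.mul_left hcd.symm hca.symm)
  have hpow : ∀ n : ℕ, (d * e) ^ n = (d * a) ^ n * c ^ n := by
    intro n; rw [hee, ← mul_assoc, hcda.mul_pow]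
  have hne : d * a ≠ 1 := by
    intro h1
    apply h.1
    have := eq_inv_of_mul_eq_one_left h1
    rwa [inv_eq hD ha] at this
  rcases trich hD hd he with h1 | h1 | h1
  · have h2 : (d * e) ^ 2 = 1 := by
      rw [pow_two, h1.eq, mul_assoc, ← mul_assoc d e, h1.eq, mul_assoc, sq hD hd, mul_one, sq hD he]
    rw [hpow, pow_two c, hc2, mul_one] at h2
    exact hne (one_of_odd h.2 (k := 1) (by rwa [pow_one]))
  · obtain ⟨k, hk⟩ := h1.2
    have h2 := pow_orderOf_eq_one (d * e)
    rw [hk, hpow] at h2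
    have h3 : c ^ (2 * k + 1) = c := by
      rw [pow_succ, pow_mul, pow_two, hc2, one_pow, one_mul]
    rw [h3] at h2
    have h4 : c = ((d * a) ^ (2 * k + 1))⁻¹ := eq_inv_of_mul_eq_one_right h2
    have h5 : orderOf c ∣ orderOf (d * a) := by
      rw [h4, orderOf_inv]; exact orderOf_pow_dvd _
    have h6 : Odd (orderOf c) := Odd.of_dvd_nat h.2 h5
    exact hc1 (one_of_odd_sq h6 hc2)
  · have h2 := pow_orderOf_eq_one (d * e)
    rw [show orderOf (d * e) = 4 from h1, hpow] at h2
    have h3 : c ^ 4 = 1 := by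
      have h5 : c ^ 2 = 1 := by rw [pow_two, hc2]
      rw [show 4 = 2 * 2 by norm_num, pow_mul, h5, one_pow]
    rw [h3, mul_one] at h2
    exact hne (one_of_odd h.2 (k := 2) (by simpa using h2))

/-- line lemma, first part: on a line {a, c, ac}, if d, a have product of odd order then d does not commute with c -/
theorem line_not_comm (hD : IsRootInvolutionSet D) {a c d : G} (ha : a ∈ D) (hc : c ∈ D) (hac : a * c ∈ D)
    (hcomm : Commute a c) (hd : d ∈ D) (h : Od d a) : ¬ Commute d c := fun hcd =>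
  line_aux hD ha hd hac h (sq hD hc) (ne_one hD hc) hcomm.symm hcd.symm rfl

/-- line lemma, second part -/
theorem line_od (hD : IsRootInvolutionSet D) {p q d : G} (hp : p ∈ D) (hq : q ∈ D) (hr : p * q ∈ D)
    (hcomm : Commute p q) (hd : d ∈ D) (h : Od d (p * q)) : Od d p ∨ Od d q := by
  by_contra hcon
  push Not at hcon
  obtain ⟨hn1, hn2⟩ := hcon
  have hpp := sq hD hp
  have hqq := sq hD hq
  have hdd := sq hD hd
  -- d does not commute with p, q
  have hpr : Commute (p * q) p := Commute.mul_left (Commute.refl p) hcomm.symm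
  have hqr : Commute (p * q) q := Commute.mul_left hcomm (Commute.refl q)
  have e1 : p * q * p = q := by rw [hcomm.eq, mul_assoc, hpp, mul_one]
  have e2 : p * q * q = p := by rw [mul_assoc, hqq, mul_one]
  have c1 : ¬ Commute d p := line_not_comm hD hr hp (by rw [e1]; exact hq) hpr hd h
  have c2 : ¬ Commute d q := line_not_comm hD hr hq (by rw [e2]; exact hp) hqr hd h
  have f1 : Fr d p := ((trich hD hd hp).resolve_left c1).resolve_left hn1
  have f2 : Fr d q := ((trich hD hd hq).resolve_left c2).resolve_left hn2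
  obtain ⟨hy1, hy1d, hy1p, -, -⟩ := four hD hd hp f1
  obtain ⟨hy2, hy2d, hy2q, -, -⟩ := four hD hd hq f2
  -- y1 = d p d p, y2 = d q d q
  have hw : q * (d * p * d * p) * q ∈ D := cj hD hy1 hq
  set y1 := d * p * d * p with hy1def
  set y2 := d * q * d * q with hy2def
  set w := q * y1 * q with hwdef
  -- y1 = p d p d
  have hy1' : y1 = p * d * p * d := by
    have := inv_eq hD hy1
    rw [← this, hy1def]
    simp only [mul_inv_rev, inv_eq hD hp, inv_eq hD hd, mul_assoc]
  have hy2' : y2 = q * d * q * d := by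
    have := inv_eq hD hy2
    rw [← this, hy2def]
    simp only [mul_inv_rev, inv_eq hD hq, inv_eq hD hd, mul_assoc]
  -- (r d)^2 = w y2
  have hmain : p * q * d * (p * q) * d = w * y2 := by
    have h1 : w * y2 = q * (p * d * p * d) * q * (q * d * q * d) := by rw [hwdef, hy1', hy2']
    rw [h1]
    have h2 : q * (p * d * p * d) * q * (q * d * q * d) = (q * p) * d * (p * q) * d := by
      simp only [mul_assoc, sqx hD hq, sqx hD hd]
    rw [h2, ← hcomm.eq]
  have hod' : Od (p * q) d := h.symm hD hd hr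
  have horder : orderOf (w * y2) = orderOf (p * q * d) := by
    rw [← hmain]
    have : p * q * d * (p * q) * d = (p * q * d) ^ 2 := by rw [pow_two]; group
    rw [this]
    exact Nat.Coprime.orderOf_pow (Nat.coprime_two_right.mpr hod'.2)
  have hne1 : p * q * d ≠ 1 := by
    intro h1
    apply hod'.1
    have := eq_inv_of_mul_eq_one_left h1
    rwa [inv_eq hD hd] at this
  have hwy : Od w y2 := by
    refine ⟨?_, by rw [horder]; exact hod'.2⟩
    intro h1
    have h2 : w * y2 = 1 := by rw [h1, sq hD hy2]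
    rw [h2, orderOf_one] at horder
    exact hne1 (orderOf_eq_one_iff.mp horder.symm)
  -- d w d = y2 w y2
  have hconj : d * (w * y2) * d = y2 * w := by
    have h1 : (w * y2)⁻¹ = y2 * w := by rw [mul_inv_rev, inv_eq hD hw, inv_eq hD hy2]
    rw [← h1, ← hmain]
    simp only [mul_inv_rev, inv_eq hD hp, inv_eq hD hd, inv_eq hD hq, mul_assoc, hdd, mul_one, hcomm.eq]
  have hc3 : Commute (d * y2) w := by
    show d * y2 * w = w * (d * y2)
    have h1 : d * y2 * w = d * (d * (w * y2) * d) := by rw [hconj, mul_assoc]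
    rw [h1]
    simp only [mul_assoc, sqx hD hd]
    rw [hy2d.eq]
  have hc4 : Commute (d * y2) y2 := Commute.mul_left hy2d.symm (Commute.refl y2)
  have hdy2 : (d * y2) * (d * y2) = 1 := by
    rw [mul_assoc, ← mul_assoc y2 d, hy2d.eq, mul_assoc, sq hD hy2, mul_one, hdd]
  by_cases hd1 : d * y2 = 1
  · -- d = y2
    have h1 : d = y2 := by
      have := eq_inv_of_mul_eq_one_left hd1
      rwa [inv_eq hD hy2] at this
    have h2 : d * q * d * q = d := by rw [← hy2def]; exact h1.symm
    have h3 : q * d * q = 1 := by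
      have h4 : d * (q * d * q) = d * 1 := by rw [mul_one]; simpa only [mul_assoc] using h2
      exact mul_left_cancel h4
    have h4 : d = 1 := by
      have : q * (q * d * q) * q = 1 := by rw [h3, mul_one, hqq]
      simpa only [mul_assoc, sqx hD hq, hqq, mul_one] using this
    exact ne_one hD hd h4
  · -- apply line_aux with a := y2?, e := d
    refine line_aux hD hy2 hw hd hwy (c := d * y2) hdy2 hd1 hc4 hc3 ?_
    rw [hy2d.symm.eq, sqx hD hy2]

end Cfsg.Agent.RI
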