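import Cfsg.Agent.RI.Basic
import Cfsg.Agent.H48.PCore

set_option autoImplicit false

/-!
# Root involutions II: 2-subgroups generated by members, components of the odd graph
-/

namespace Cfsg.Agent.RI

open Cfsg

variable {G : Type*} [Group G] {D : Set G}

theorem oddAdj_iff {a b : G} : OddAdj D a b ↔ a ∈ D ∧ b ∈ D ∧ Od a b := by
  unfold OddAdj Od; tauto

theorem oddAdj_symm (hD : IsRootInvolutionSet D) {a b : G} (h : OddAdj D a b) : OddAdj D b a := by
  rw [oddAdj_iff] at h ⊢
  exact ⟨h.2.1, h.1, h.2.2.symm hD h.1 h.2.1⟩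

/-- a pair of involutions with product of 2-power order generates a 2-group -/
theorem isPGroup_pair {a b : G} (ha : a * a = 1) (hb : b * b = 1) {k : ℕ} (hk : (a * b) ^ 2 ^ k = 1) :
    IsPGroup 2 ↥(Subgroup.closure ({a, b} : Set G)) := by
  have hainv : a⁻¹ = a := inv_eq_of_mul_eq_one_right ha
  have hbinv : b⁻¹ = b := inv_eq_of_mul_eq_one_right hb
  have hconj : ∀ t ∈ Subgroup.zpowers (a * b), a * t * a ∈ Subgroup.zpowers (a * b) := by
    rintro t ⟨j, rfl⟩
    have h1 : a * (a * b) * a⁻¹ = (a * b)⁻¹ := by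
      rw [mul_inv_rev, hainv, hbinv, ← mul_assoc a a b, ha, one_mul]
    refine ⟨-j, ?_⟩
    show (a * b) ^ (-j) = a * (a * b) ^ j * a
    have h2 : a * (a * b) ^ j * a⁻¹ = ((a * b)⁻¹) ^ j := by rw [← conj_zpow, h1]
    rw [hainv] at h2
    rw [h2, inv_zpow, zpow_neg]
  have key : ∀ x ∈ Subgroup.closure ({a, b} : Set G), x ∈ Subgroup.zpowers (a * b) ∨ x * a ∈ Subgroup.zpowers (a * b) := by
    intro x hx
    refine Subgroup.closure_induction_left (p := fun (x : G) _ => x ∈ Subgroup.zpowers (a * b) ∨ x * a ∈ Subgroup.zpowers (a * b))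
      (Or.inl (one_mem _)) ?_ ?_ hx
    · intro y hy z _ hz
      have hya : y * a ∈ Subgroup.zpowers (a * b) ∧ y * y = 1 := by
        rcases hy with rfl | rfl
        · rw [ha]; exact ⟨one_mem _, rfl⟩
        · refine ⟨?_, hb⟩
          have : y * a = (a * y)⁻¹ := by rw [mul_inv_rev, hainv, hbinv]
          rw [this]; exact inv_mem (Subgroup.mem_zpowers _)
      rcases hz with hz | hz
      · right
        have h3 := hconj z hz
        have : y * z * a = (y * a) * (a * z * a) := by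
          rw [mul_assoc y a, ← mul_assoc a (a * z) a, ← mul_assoc a a z, ha, one_mul, mul_assoc]
        rw [this]; exact mul_mem hya.1 h3
      · left
        have h3 := hconj _ hz
        have : y * z = (y * a) * (a * (z * a) * a) := by
          simp only [mul_assoc, ha, mul_one]
          rw [← mul_assoc a a z, ha, one_mul]
        rw [this]; exact mul_mem hya.1 h3
    · intro y hy z _ hz
      have hy' : y⁻¹ = y := by
        rcases hy with rfl | rfl
        · exact hainv
        · exact hbinv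
      rw [hy']
      have hya : y * a ∈ Subgroup.zpowers (a * b) := by
        rcases hy with rfl | rfl
        · rw [ha]; exact one_mem _
        · have : y * a = (a * y)⁻¹ := by rw [mul_inv_rev, hainv, hbinv]
          rw [this]; exact inv_mem (Subgroup.mem_zpowers _)
      rcases hz with hz | hz
      · right
        have h3 := hconj z hz
        have : y * z * a = (y * a) * (a * z * a) := by
          rw [mul_assoc y a, ← mul_assoc a (a * z) a, ← mul_assoc a a z, ha, one_mul, mul_assoc]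
        rw [this]; exact mul_mem hya h3
      · left
        have h3 := hconj _ hz
        have : y * z = (y * a) * (a * (z * a) * a) := by
          simp only [mul_assoc, ha, mul_one]
          rw [← mul_assoc a a z, ha, one_mul]
        rw [this]; exact mul_mem hya h3
  rintro ⟨x, hx⟩
  rcases key x hx with h | h
  · obtain ⟨j, rfl⟩ := h
    refine ⟨k, ?_⟩
    apply Subtype.ext
    show ((a * b) ^ j) ^ 2 ^ k = 1
    rw [← zpow_natCast, zpow_comm, zpow_natCast, hk, one_zpow]
  · refine ⟨1, ?_⟩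
    apply Subtype.ext
    show x ^ 2 ^ 1 = 1
    obtain ⟨j, hj⟩ := h
    have hx' : x = (a * b) ^ j * a := by
      have : x * a * a = (a * b) ^ j * a := by rw [← hj]
      rwa [mul_assoc, ha, mul_one] at this
    rw [pow_one, pow_two, hx']
    have h1 : a * (a * b) * a⁻¹ = (a * b)⁻¹ := by
      rw [mul_inv_rev, hainv, hbinv, ← mul_assoc a a b, ha, one_mul]
    have h2 : a * (a * b) ^ j * a⁻¹ = ((a * b)⁻¹) ^ j := by rw [← conj_zpow, h1]
    rw [hainv] at h2
    have : (a * b) ^ j * a * ((a * b) ^ j * a) = (a * b) ^ j * (a * (a * b) ^ j * a) := by group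
    rw [this, h2, inv_zpow, mul_inv_cancel]

/-- a conjugation invariant set of involutions with all products of 2-power order generates a 2-group -/
theorem isPGroup_closure [Finite G] {S : Set G} (h1 : ∀ a ∈ S, a * a = 1) (h2 : ∀ a ∈ S, ∀ g : G, g * a * g⁻¹ ∈ S)
    (h3 : ∀ a ∈ S, ∀ b ∈ S, (a * b) ^ 4 = 1) : IsPGroup 2 ↥(Subgroup.closure S) := by
  have hle : Subgroup.closure S ≤ pCore 2 G := by
    rw [Subgroup.closure_le]
    intro a ha
    obtain ⟨N, hN, hN2, haN⟩ := H4.baer_suzuki_elem (p := 2) a (fun g =>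
      isPGroup_pair (h1 a ha) (h1 _ (h2 a ha g)) (k := 2) (h3 a ha _ (h2 a ha g)))
    exact (le_sSup (show N ∈ {N : Subgroup G | N.Normal ∧ IsPGroup 2 N} from ⟨hN, hN2⟩)) haN
  exact (H48.isPGroup_pCore 2 G).to_le hle

/-- relative version -/
theorem isPGroup_closure' [Finite G] {S : Set G} (h1 : ∀ a ∈ S, a * a = 1) (h2 : ∀ a ∈ S, ∀ b ∈ S, b * a * b ∈ S)
    (h3 : ∀ a ∈ S, ∀ b ∈ S, (a * b) ^ 4 = 1) : IsPGroup 2 ↥(Subgroup.closure S) := by
  set H := Subgroup.closure S with hH
  let S' : Set ↥H := {x | (x : G) ∈ S}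
  have hS' : ∀ a ∈ S', a * a = 1 := fun a ha => Subtype.ext (h1 _ ha)
  have hcj : ∀ a ∈ S', ∀ g : ↥H, g * a * g⁻¹ ∈ S' := by
    intro a ha g
    show ((g * a * g⁻¹ : ↥H) : G) ∈ S
    obtain ⟨g, hg⟩ := g
    show g * (a : G) * g⁻¹ ∈ S
    have : ∀ b ∈ S, g * b * g⁻¹ ∈ S := by
      clear ha
      refine Subgroup.closure_induction_left (p := fun (x : G) _ => ∀ b ∈ S, x * b * x⁻¹ ∈ S) ?_ ?_ ?_ hg
      · intro b hb; simpa using hb
      · intro x hx y _ hy b hb
        have h5 : x⁻¹ = x := inv_eq_of_mul_eq_one_right (h1 x hx)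
        have h6 : x * y * b * (x * y)⁻¹ = x * (y * b * y⁻¹) * x := by rw [mul_inv_rev, h5]; group
        rw [h6]; exact h2 _ (hy b hb) x hx
      · intro x hx y _ hy b hb
        have h5 : x⁻¹ = x := inv_eq_of_mul_eq_one_right (h1 x hx)
        rw [h5]
        have h6 : x * y * b * (x * y)⁻¹ = x * (y * b * y⁻¹) * x := by rw [mul_inv_rev, h5]; group
        rw [h6]; exact h2 _ (hy b hb) x hx
    exact this _ ha
  have h4 : ∀ a ∈ S', ∀ b ∈ S', (a * b) ^ 4 = 1 := fun a ha b hb => Subtype.ext (h3 _ ha _ hb)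
  have h5 := isPGroup_closure hS' hcj h4
  have h6 : Subgroup.closure S' = ⊤ := by
    rw [eq_top_iff]
    intro x _
    obtain ⟨x, hx⟩ := x
    have : ∀ x (hx : x ∈ H), (⟨x, hx⟩ : ↥H) ∈ Subgroup.closure S' := by
      intro x hx
      refine Subgroup.closure_induction (p := fun (x : G) (hx : x ∈ Subgroup.closure S) => (⟨x, hx⟩ : ↥H) ∈ Subgroup.closure S') ?_ ?_ ?_ ?_ hx
      · intro y hy; exact Subgroup.subset_closure hy
      · exact one_mem _
      · intro y z hy hz h1 h2; exact mul_mem h1 h2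
      · intro y hy h1; exact inv_mem h1
    exact this x hx
  rw [h6] at h5
  exact h5.of_equiv Subgroup.topEquiv

theorem pow_four (hD : IsRootInvolutionSet D) {a b : G} (ha : a ∈ D) (hb : b ∈ D) (h : ¬ Od a b) : (a * b) ^ 4 = 1 := by
  rcases trich hD ha hb with h1 | h1 | h1
  · have : (a * b) ^ 2 = 1 := by
      rw [pow_two, h1.eq, mul_assoc, ← mul_assoc a b, h1.eq, mul_assoc, sq hD ha, mul_one, sq hD hb]
    rw [show 4 = 2 * 2 by norm_num, pow_mul, this, one_pow]
  · exact absurd h1 h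
  · have := pow_orderOf_eq_one (a * b)
    rwa [show orderOf (a * b) = 4 from h1] at this

theorem not_od_of_pow (hD : IsRootInvolutionSet D) {a b : G} (hb : b ∈ D) (h : (a * b) ^ 4 = 1) : ¬ Od a b := by
  intro h2
  have h3 := one_of_odd h2.2 (k := 2) (by simpa using h)
  apply h2.1
  have := eq_inv_of_mul_eq_one_left h3
  rwa [inv_eq hD hb] at this

/-! ### The isolated vertices -/

/-- the isolated vertices of the odd graph -/
def W (D : Set G) : Set G := {w | IsIsolatedElem (OddAdj D) D w}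

theorem mem_W (hD : IsRootInvolutionSet D) {w : G} : w ∈ W D ↔ w ∈ D ∧ ∀ b ∈ D, ¬ Od w b := by
  unfold W IsIsolatedElem
  constructor
  · rintro ⟨h1, h2⟩
    exact ⟨h1, fun b hb h => (h2 b).1 (oddAdj_iff.mpr ⟨h1, hb, h⟩)⟩
  · rintro ⟨h1, h2⟩
    refine ⟨h1, fun b => ⟨fun h => ?_, fun h => ?_⟩⟩
    · rw [oddAdj_iff] at h; exact h2 b h.2.1 h.2.2
    · rw [oddAdj_iff] at h; exact h2 b h.1 (h.2.2.symm hD h.1 h.2.1)

theorem W_conj (hD : IsRootInvolutionSet D) {w : G} (hw : w ∈ W D) (g : G) : g * w * g⁻¹ ∈ W D := by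
  rw [mem_W hD] at hw ⊢
  refine ⟨hD.conj_mem _ hw.1 g, fun b hb h => ?_⟩
  have h1 := hD.conj_mem b hb g⁻¹
  apply hw.2 _ h1
  have := h.conj g⁻¹
  have e1 : g⁻¹ * (g * w * g⁻¹) * g⁻¹⁻¹ = w := by group
  rwa [e1] at this

theorem closure_normal {S : Set G} (h : ∀ a ∈ S, ∀ g : G, g * a * g⁻¹ ∈ S) : (Subgroup.closure S).Normal := by
  constructor
  intro n hn g
  refine Subgroup.closure_induction (p := fun (x : G) _ => g * x * g⁻¹ ∈ Subgroup.closure S) ?_ ?_ ?_ ?_ hn
  · intro x hx; exact Subgroup.subset_closure (h x hx g)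
  · simp
  · intro x y _ _ hx hy
    have : g * (x * y) * g⁻¹ = g * x * g⁻¹ * (g * y * g⁻¹) := by group
    rw [this]; exact mul_mem hx hy
  · intro x _ hx
    have : g * x⁻¹ * g⁻¹ = (g * x * g⁻¹)⁻¹ := by group
    rw [this]; exact inv_mem hx

theorem W_normal (hD : IsRootInvolutionSet D) : (Subgroup.closure (W D)).Normal :=
  closure_normal fun _ ha g => W_conj hD ha g

theorem W_isPGroup [Finite G] (hD : IsRootInvolutionSet D) : IsPGroup 2 ↥(Subgroup.closure (W D)) :=
  isPGroup_closure (fun a ha => sq hD ((mem_W hD).mp ha).1) (fun a ha g => W_conj hD ha g)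
    (fun a ha b hb => pow_four hD ((mem_W hD).mp ha).1 ((mem_W hD).mp hb).1 (((mem_W hD).mp ha).2 b ((mem_W hD).mp hb).1))

/-- a member in a normal 2-subgroup is isolated -/
theorem mem_W_of_normal (hD : IsRootInvolutionSet D) {N : Subgroup G} (hN : N.Normal) (hN2 : IsPGroup 2 N) {d : G}
    (hd : d ∈ D) (hdN : d ∈ N) : d ∈ W D := by
  rw [mem_W hD]
  refine ⟨hd, fun b hb h => ?_⟩
  have h1 : (d * b) * (d * b) ∈ N := by
    have : (d * b) * (d * b) = d * (b * d * b⁻¹) := by rw [inv_eq hD hb]; group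
    rw [this]; exact mul_mem hdN (hN.conj_mem d hdN b)
  obtain ⟨k, hk⟩ := hN2 ⟨_, h1⟩
  have hk' : ((d * b) * (d * b)) ^ 2 ^ k = 1 := congrArg Subtype.val hk
  rw [← pow_two, ← pow_mul, ← pow_succ'] at hk'
  have h3 := one_of_odd h.2 hk'
  apply h.1
  have := eq_inv_of_mul_eq_one_left h3
  rwa [inv_eq hD hb] at this

/-! ### Components of the odd graph -/

abbrev Rel (D : Set G) : G → G → Prop := Relation.ReflTransGen (OddAdj D)

theorem rel_symm (hD : IsRootInvolutionSet D) {a b : G} (h : Rel D a b) : Rel D b a := by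
  induction h with
  | refl => exact Relation.ReflTransGen.refl
  | tail _ h2 ih => exact Relation.ReflTransGen.head (oddAdj_symm hD h2) ih

theorem rel_of_od {a b : G} (ha : a ∈ D) (hb : b ∈ D) (h : Od a b) : Rel D a b :=
  Relation.ReflTransGen.single (oddAdj_iff.mpr ⟨ha, hb, h⟩)

theorem mem_comp {a b : G} : b ∈ elemComponentOf (OddAdj D) D a ↔ b ∈ D ∧ Rel D a b := Iff.rfl

theorem comp_eq (hD : IsRootInvolutionSet D) {a b : G} (h : Rel D a b) :
    elemComponentOf (OddAdj D) D a = elemComponentOf (OddAdj D) D b := by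
  ext x
  rw [mem_comp, mem_comp]
  exact ⟨fun h2 => ⟨h2.1, (rel_symm hD h).trans h2.2⟩, fun h2 => ⟨h2.1, h.trans h2.2⟩⟩

/-- members of the same component as z = [a,b] -/
theorem rel_comm (hD : IsRootInvolutionSet D) {a b c : G} (ha : a ∈ D) (hb : b ∈ D) (hf : Fr a b) (hc : c ∈ D)
    (hcz : Od c (a * b * a * b)) : Rel D a (a * b * a * b) := by
  obtain ⟨hz, hza, hzb, h1, h2⟩ := four hD ha hb hf
  set z := a * b * a * b with hzdef
  have haz : a * z ∈ D := by rw [← h1]; exact cj hD ha hb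
  have hprod : a * (a * z) = z := sqx hD ha z
  have hcomm : Commute a (a * z) := (Commute.refl a).mul_right hza.symm
  have hcz' : Od c (a * (a * z)) := by rw [hprod]; exact hcz
  rcases line_od hD ha haz (by rw [hprod]; exact hz) hcomm hc hcz' with h | h
  · exact (rel_symm hD (rel_of_od hc ha h)).trans (rel_of_od hc hz hcz)
  · -- conjugate by b
    have hc2 : b * c * b⁻¹ ∈ D := hD.conj_mem c hc b
    have h3 := h.conj b
    have h4 := hcz.conj b
    have e1 : b * (a * z) * b⁻¹ = a := by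
      rw [← h1, inv_eq hD hb]; simp only [mul_assoc, sq hD hb, mul_one, sqx hD hb]
    have e2 : b * z * b⁻¹ = z := by rw [hzb.symm.eq]; group
    rw [e1] at h3
    rw [e2] at h4
    exact (rel_symm hD (rel_of_od hc2 ha h3)).trans (rel_of_od hc2 hz h4)

theorem comm_of_ne_comp (hD : IsRootInvolutionSet D) {a b : G} (ha : a ∈ D) (hb : b ∈ D) (h : ¬ Rel D a b) :
    Commute a b ∨ (Fr a b ∧ a * b * a * b ∈ W D) := by
  rcases trich hD ha hb with h1 | h1 | h1
  · exact Or.inl h1
  · exact absurd (rel_of_od ha hb h1) h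
  · right
    refine ⟨h1, ?_⟩
    obtain ⟨hz, hza, hzb, h2, h3⟩ := four hD ha hb h1
    by_contra hW
    rw [mem_W hD] at hW
    push Not at hW
    obtain ⟨c, hc, hcz⟩ := hW hz
    have hcz' := hcz.symm hD hz hc
    have hab := rel_comm hD ha hb h1 hc hcz'
    have hz' : b * a * b * a = a * b * a * b := by
      have : (a * b * a * b)⁻¹ = a * b * a * b := inv_eq hD hz
      rw [← this]
      simp only [mul_inv_rev, inv_eq hD ha, inv_eq hD hb, mul_assoc]
    have hba := rel_comm hD hb ha (h1.symm hD ha hb) hc (by rw [hz']; exact hcz')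
    rw [hz'] at hba
    exact h (hab.trans (rel_symm hD hba))

theorem exists_od_of_comp {a : G} (ha : a ∈ D) (h : ∃ a' ∈ elemComponentOf (OddAdj D) D a, a' ≠ a) :
    ∃ c ∈ D, Od a c := by
  obtain ⟨a', ⟨-, h1⟩, h2⟩ := h
  rcases Relation.ReflTransGen.cases_head h1 with h3 | ⟨c, h3, -⟩
  · exact absurd h3.symm h2
  · rw [oddAdj_iff] at h3
    exact ⟨c, h3.2.1, h3.2.2⟩

theorem line_comp (hD : IsRootInvolutionSet D) {a e : G} (ha : a ∈ D) (hac : ∃ c ∈ D, Od a c) (he : e ∈ productPartners D a) :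
    Rel D a e ∨ e ∈ W D := by
  obtain ⟨⟨heD, hcomm, hne⟩, hea⟩ := he
  have hcomm' : Commute e a := hcomm
  by_contra hcon
  push Not at hcon
  obtain ⟨h1, h2⟩ := hcon
  rw [mem_W hD] at h2
  push Not at h2
  obtain ⟨c, hc, hec⟩ := h2 heD
  obtain ⟨c', hc', hac'⟩ := hac
  have hce := hec.symm hD heD hc
  have hca := hac'.symm hD ha hc'
  have e1 : a * (e * a) = e := by rw [hcomm'.eq, sqx hD ha]
  have e2 : e * (e * a) = a := sqx hD heD a
  have hc1 : Commute a (e * a) := Commute.mul_right hcomm'.symm (Commute.refl a)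
  have hc2 : Commute e (e * a) := Commute.mul_right (Commute.refl e) hcomm'
  rcases line_od hD ha hea (by rw [e1]; exact heD) hc1 hc (by rw [e1]; exact hce) with h | h
  · exact h1 ((rel_symm hD (rel_of_od hc ha h)).trans (rel_of_od hc heD hce))
  · have h3 : Rel D (e * a) e := (rel_symm hD (rel_of_od hc hea h)).trans (rel_of_od hc heD hce)
    rcases line_od hD heD hea (by rw [e2]; exact ha) hc2 hc' (by rw [e2]; exact hca) with h4 | h4
    · exact h1 ((rel_symm hD (rel_of_od hc' ha hca)).trans (rel_of_od hc' heD h4))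
    · exact h1 (((rel_symm hD (rel_of_od hc' ha hca)).trans (rel_of_od hc' hea h4)).trans h3)

/-- S5045 -/
theorem thm5045 [Finite G] (hD : IsRootInvolutionSet D) :
    (∀ w ∈ W D, ∀ g : G, g * w * g⁻¹ ∈ W D) ∧
    (Subgroup.closure (W D)).Normal ∧
    IsPGroup 2 ↥(Subgroup.closure (W D)) ∧
    (Subgroup.closure (W D) : Set G) ∩ D = W D ∧
    (∀ a ∈ D, ∀ b ∈ D, (∃ a' ∈ elemComponentOf (OddAdj D) D a, a' ≠ a) →
      (∃ b' ∈ elemComponentOf (OddAdj D) D b, b' ≠ b) →
      elemComponentOf (OddAdj D) D a ≠ elemComponentOf (OddAdj D) D b →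
        a * b * a⁻¹ * b⁻¹ ∈ Subgroup.closure (W D)) ∧
    (∀ a ∈ D, (∃ a' ∈ elemComponentOf (OddAdj D) D a, a' ≠ a) →
      productPartners D a ⊆ elemComponentOf (OddAdj D) D a ∪ W D) := by
  refine ⟨fun w hw g => W_conj hD hw g, W_normal hD, W_isPGroup hD, ?_, ?_, ?_⟩
  · ext d
    constructor
    · rintro ⟨h1, h2⟩
      exact mem_W_of_normal hD (W_normal hD) (W_isPGroup hD) h2 h1
    · intro h
      exact ⟨Subgroup.subset_closure h, ((mem_W hD).mp h).1⟩
  · intro a ha b hb _ _ hne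
    have h1 : ¬ Rel D a b := fun h => hne (comp_eq hD h)
    rcases comm_of_ne_comp hD ha hb h1 with h2 | ⟨-, h2⟩
    · rw [h2.eq]
      have : b * a * a⁻¹ * b⁻¹ = 1 := by group
      rw [this]; exact one_mem _
    · rw [inv_eq hD ha, inv_eq hD hb]
      exact Subgroup.subset_closure h2
  · intro a ha hac e he
    rcases line_comp hD ha (exists_od_of_comp ha hac) he with h | h
    · left; exact ⟨he.1.1, h⟩
    · right; exact h

end Cfsg.Agent.RI
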