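import Cfsg.Agent.RI.Three
import Cfsg.Agent.S2579
import Cfsg.Agent.H43.RankOne
import Cfsg.Agent.H40.SLGen

set_option autoImplicit false

/-!
# Transvections in characteristic two are root involutions
-/

namespace Cfsg.Agent.RI

open Cfsg Matrix

section ring

variable {R : Type*} [Ring R] {A B : R}

/-- the ring computation: `(1 + A)(1 + B)` -/
theorem two_eq_zero_of (h : (2 : R) = 0) (x : R) : x + x = 0 := by
  rw [← two_mul, h, zero_mul]

end ring

variable {ι : Type} [Fintype ι] [DecidableEq ι] {F : Type*} [Field F]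

theorem vv_mul (a φ b ψ : ι → F) : vecMulVec a φ * vecMulVec b ψ = (φ ⬝ᵥ b) • vecMulVec a ψ := by
  rw [H43.mul_vecMulVec', Matrix.vecMulVec_mulVec]
  ext i j
  simp only [vecMulVec_apply, Matrix.smul_apply, Pi.smul_apply, MulOpposite.smul_eq_mul_unop, MulOpposite.unop_op,
    smul_eq_mul]
  ring

theorem vv_ne_zero {a φ : ι → F} (ha : a ≠ 0) (hφ : φ ≠ 0) : vecMulVec a φ ≠ 0 := by
  intro h
  obtain ⟨i, hi⟩ := Function.ne_iff.1 ha
  obtain ⟨j, hj⟩ := Function.ne_iff.1 hφ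
  have := congrFun (congrFun h i) j
  rw [vecMulVec_apply] at this
  exact mul_ne_zero hi hj this

/-- a square-zero matrix commuting with a rank one matrix kills it -/
theorem kill {Z : Matrix ι ι F} {v φ : ι → F} (hφ : φ ≠ 0) (hv : v ≠ 0) (hZ : Z * Z = 0)
    (hc : Z * vecMulVec v φ = vecMulVec v φ * Z) : Z * vecMulVec v φ = 0 := by
  rw [H43.mul_vecMulVec', H43.vecMulVec_mul'] at hc
  obtain ⟨j, hj⟩ := Function.ne_iff.1 hφ
  have hj' : φ j ≠ 0 := hj
  have h1 : ∀ i, (Z.mulVec v) i * φ j = v i * (vecMul φ Z) j := by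
    intro i
    have := congrFun (congrFun hc i) j
    rwa [vecMulVec_apply, vecMulVec_apply] at this
  have h2 : Z.mulVec v = ((vecMul φ Z) j * (φ j)⁻¹) • v := by
    funext i
    rw [Pi.smul_apply, smul_eq_mul]
    have := h1 i
    field_simp
    linear_combination this
  set l := (vecMul φ Z) j * (φ j)⁻¹ with hl
  have h3 : (Z * Z).mulVec v = (l * l) • v := by
    rw [← Matrix.mulVec_mulVec, h2, Matrix.mulVec_smul, h2, smul_smul]
  rw [hZ, Matrix.zero_mulVec] at h3
  have h4 : l = 0 := by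
    rcases smul_eq_zero.mp h3.symm with h | h
    · exact mul_self_eq_zero.mp h
    · exact absurd h hv
  rw [H43.mul_vecMulVec', h2, h4, zero_smul]
  ext i j; simp [vecMulVec_apply]

/-- SL version of a transvection -/
def IsTvv (t : SpecialLinearGroup ι F) (v φ : ι → F) : Prop :=
  v ≠ 0 ∧ φ ≠ 0 ∧ φ ⬝ᵥ v = 0 ∧ (t : Matrix ι ι F) = 1 + vecMulVec v φ

variable [CharP F 2]

omit [Fintype ι] [DecidableEq ι] in
theorem add_self_mat (M : Matrix ι ι F) : M + M = 0 := by
  ext i j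
  rw [Matrix.add_apply, Matrix.zero_apply, CharTwo.add_self_eq_zero]

theorem IsTvv.sq {t : SpecialLinearGroup ι F} {v φ : ι → F} (h : IsTvv t v φ) : t * t = 1 := by
  apply Subtype.ext
  have e : ∀ A : Matrix ι ι F, (1 + A) * (1 + A) = 1 + (A + A) + A * A := by intro A; noncomm_ring
  rw [Matrix.SpecialLinearGroup.coe_mul, h.2.2.2, e, vv_mul, h.2.2.1, zero_smul, add_zero, add_self_mat, add_zero]
  rfl

theorem IsTvv.order {t : SpecialLinearGroup ι F} {v φ : ι → F} (h : IsTvv t v φ) : orderOf t = 2 := by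
  refine orderOf_eq_prime ?_ ?_
  · rw [pow_two, h.sq]
  · intro h1
    have h2 := h.2.2.2
    rw [h1, Matrix.SpecialLinearGroup.coe_one] at h2
    exact vv_ne_zero h.1 h.2.1 (by
      have := congrArg (fun M => M - 1) h2
      simpa using this.symm)

theorem pair_cases {s t : SpecialLinearGroup ι F} {v φ w ψ : ι → F} (hs : IsTvv s v φ) (ht : IsTvv t w ψ) :
    (φ ⬝ᵥ w = 0 ∧ ψ ⬝ᵥ v = 0 → s * t = t * s) ∧
    (φ ⬝ᵥ w ≠ 0 → ψ ⬝ᵥ v = 0 → IsTvv ((s * t) ^ 2) ((φ ⬝ᵥ w) • v) ψ) := by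
  set A := vecMulVec v φ with hA
  set B := vecMulVec w ψ with hB
  have es : (s : Matrix ι ι F) = 1 + A := hs.2.2.2
  have et : (t : Matrix ι ι F) = 1 + B := ht.2.2.2
  have hAA : A * A = 0 := by rw [hA, vv_mul, hs.2.2.1, zero_smul]
  have hBB : B * B = 0 := by rw [hB, vv_mul, ht.2.2.1, zero_smul]
  constructor
  · rintro ⟨h1, h2⟩
    apply Subtype.ext
    rw [Matrix.SpecialLinearGroup.coe_mul, Matrix.SpecialLinearGroup.coe_mul, es, et]
    have hAB : A * B = 0 := by rw [hA, hB, vv_mul, h1, zero_smul]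
    have hBA : B * A = 0 := by rw [hA, hB, vv_mul, h2, zero_smul]
    rw [mul_add, add_mul, add_mul, mul_add, add_mul, add_mul, hAB, hBA]
    simp only [mul_one, one_mul, add_zero]
    abel
  · intro h1 h2
    have hBA : B * A = 0 := by rw [hA, hB, vv_mul, h2, zero_smul]
    refine ⟨smul_ne_zero h1 hs.1, ht.2.1, by rw [dotProduct_smul, h2, smul_zero], ?_⟩
    rw [Matrix.SpecialLinearGroup.coe_pow, Matrix.SpecialLinearGroup.coe_mul, es, et, pow_two]
    have e1 : vecMulVec ((φ ⬝ᵥ w) • v) ψ = A * B := by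
      rw [hA, hB, vv_mul]
      ext i j; simp [vecMulVec_apply, mul_assoc]
    rw [e1]
    have e2 : (1 + A) * (1 + B) * ((1 + A) * (1 + B)) =
        1 + A * B + ((A + A) + (B + B) + (A * B + A * B) + A * A + B * B + B * A + A * B * A + A * (B * B) +
          (A * A) * B + B * A * B + (A * B) * (A * B)) := by noncomm_ring
    have e3 : A * B * A = 0 := by rw [mul_assoc, hBA, mul_zero]
    have e4 : A * B * (A * B) = 0 := by rw [← mul_assoc, e3, zero_mul]
    rw [e2, hAA, hBB, hBA, e3, e4]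
    simp only [add_self_mat, add_zero, zero_mul, mul_zero]

/-- the key identity `(P - 1)(P + P⁻¹) = γ (P - 1)` -/
theorem key_identity {s t : SpecialLinearGroup ι F} {v φ w ψ : ι → F} (hs : IsTvv s v φ) (ht : IsTvv t w ψ) :
    (((s * t : SpecialLinearGroup ι F) : Matrix ι ι F) - 1) *
      (((s * t : SpecialLinearGroup ι F) : Matrix ι ι F) + ((t * s : SpecialLinearGroup ι F) : Matrix ι ι F)) =
      ((φ ⬝ᵥ w) * (ψ ⬝ᵥ v)) • (((s * t : SpecialLinearGroup ι F) : Matrix ι ι F) - 1) := by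
  set A := vecMulVec v φ with hA
  set B := vecMulVec w ψ with hB
  have es : (s : Matrix ι ι F) = 1 + A := hs.2.2.2
  have et : (t : Matrix ι ι F) = 1 + B := ht.2.2.2
  have hAA : A * A = 0 := by rw [hA, vv_mul, hs.2.2.1, zero_smul]
  have hBB : B * B = 0 := by rw [hB, vv_mul, ht.2.2.1, zero_smul]
  have hABA : A * B * A = ((φ ⬝ᵥ w) * (ψ ⬝ᵥ v)) • A := by
    rw [hA, hB, vv_mul, smul_mul_assoc, vv_mul, smul_smul]
  have hBAB : B * A * B = ((φ ⬝ᵥ w) * (ψ ⬝ᵥ v)) • B := by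
    rw [hA, hB, vv_mul, smul_mul_assoc, vv_mul, smul_smul, mul_comm]
  rw [Matrix.SpecialLinearGroup.coe_mul, Matrix.SpecialLinearGroup.coe_mul, es, et]
  have e1 : (1 + A) * (1 + B) - 1 = A + B + A * B := by noncomm_ring
  have e2 : (1 + A) * (1 + B) + (1 + B) * (1 + A) = (1 + 1) + (A + A) + (B + B) + (A * B + B * A) := by noncomm_ring
  rw [e1, e2]
  simp only [add_self_mat, zero_add]
  have e3 : (A + B + A * B) * (A * B + B * A) = A * A * B + A * B * A + B * A * B + B * B * A + A * (B * A * B) +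
    A * (B * B) * A := by noncomm_ring
  rw [e3, hAA, hBB, hABA, hBAB]
  simp only [zero_mul, mul_zero, add_zero, zero_add, mul_smul_comm]
  rw [smul_add, smul_add]

theorem pair_odd {s t : SpecialLinearGroup ι F} [Finite (SpecialLinearGroup ι F)] {v φ w ψ : ι → F} (hs : IsTvv s v φ)
    (ht : IsTvv t w ψ) (h1 : φ ⬝ᵥ w ≠ 0) (h2 : ψ ⬝ᵥ v ≠ 0) : Odd (orderOf (s * t)) := by
  by_contra hodd
  rw [Nat.not_odd_iff_even] at hodd
  obtain ⟨k, hk⟩ := hodd
  have hpos := orderOf_pos (s * t)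
  have hk0 : 0 < k := by omega
  set z := (s * t) ^ k with hz
  have hz1 : z ≠ 1 := by
    intro h
    have := orderOf_dvd_of_pow_eq_one h
    have := Nat.le_of_dvd hk0 this
    omega
  have hzz : z * z = 1 := by
    rw [hz, ← pow_add, ← hk, pow_orderOf_eq_one]
  have hsinv : s⁻¹ = s := inv_eq_of_mul_eq_one_left hs.sq
  have htinv : t⁻¹ = t := inv_eq_of_mul_eq_one_left ht.sq
  have hzinv : z⁻¹ = z := inv_eq_of_mul_eq_one_left hzz
  have hcs : s * z = z * s := by
    have e : s * z * s⁻¹ = z⁻¹ := by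
      rw [hz, ← conj_pow, ← inv_pow]
      congr 1
      rw [_root_.mul_inv_rev, hsinv, htinv, ← mul_assoc, hs.sq, one_mul]
    rw [hzinv] at e
    exact mul_inv_eq_iff_eq_mul.mp e
  have hct : t * z = z * t := by
    have e : t * z * t⁻¹ = z⁻¹ := by
      rw [hz, ← conj_pow, ← inv_pow]
      congr 1
      rw [_root_.mul_inv_rev, hsinv, htinv, mul_assoc, mul_assoc, ht.sq, mul_one]
    rw [hzinv] at e
    exact mul_inv_eq_iff_eq_mul.mp e
  set Z : Matrix ι ι F := (z : Matrix ι ι F) - 1 with hZ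
  set P : Matrix ι ι F := ((s * t : SpecialLinearGroup ι F) : Matrix ι ι F) with hP
  set Q : Matrix ι ι F := ((t * s : SpecialLinearGroup ι F) : Matrix ι ι F) with hQ
  have hZZ : Z * Z = 0 := by
    have e1 : (z : Matrix ι ι F) * (z : Matrix ι ι F) = 1 := by
      rw [← Matrix.SpecialLinearGroup.coe_mul, hzz]; rfl
    have e2 : Z * Z = (z : Matrix ι ι F) * (z : Matrix ι ι F) + 1 - ((z : Matrix ι ι F) + (z : Matrix ι ι F)) := by
      rw [hZ]; noncomm_ring
    rw [e2, e1, add_self_mat, add_self_mat, sub_zero]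
  have hZA : Z * vecMulVec v φ = 0 := by
    apply kill hs.2.1 hs.1 hZZ
    have e1 := congrArg (fun g : SpecialLinearGroup ι F => (g : Matrix ι ι F)) hcs
    simp only [Matrix.SpecialLinearGroup.coe_mul] at e1
    rw [hs.2.2.2] at e1
    rw [hZ, sub_mul, mul_sub, one_mul, mul_one]
    have e2 : (1 + vecMulVec v φ) * (z : Matrix ι ι F) = (z : Matrix ι ι F) + vecMulVec v φ * (z : Matrix ι ι F) := by
      rw [add_mul, one_mul]
    have e3 : (z : Matrix ι ι F) * (1 + vecMulVec v φ) = (z : Matrix ι ι F) + (z : Matrix ι ι F) * vecMulVec v φ := by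
      rw [mul_add, mul_one]
    rw [e2, e3] at e1
    rw [add_left_cancel e1]
  have hZB : Z * vecMulVec w ψ = 0 := by
    apply kill ht.2.1 ht.1 hZZ
    have e1 := congrArg (fun g : SpecialLinearGroup ι F => (g : Matrix ι ι F)) hct
    simp only [Matrix.SpecialLinearGroup.coe_mul] at e1
    rw [ht.2.2.2] at e1
    rw [hZ, sub_mul, mul_sub, one_mul, mul_one]
    have e2 : (1 + vecMulVec w ψ) * (z : Matrix ι ι F) = (z : Matrix ι ι F) + vecMulVec w ψ * (z : Matrix ι ι F) := by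
      rw [add_mul, one_mul]
    have e3 : (z : Matrix ι ι F) * (1 + vecMulVec w ψ) = (z : Matrix ι ι F) + (z : Matrix ι ι F) * vecMulVec w ψ := by
      rw [mul_add, mul_one]
    rw [e2, e3] at e1
    rw [add_left_cancel e1]
  have hZP : Z * P = Z := by
    have e1 : Z * (1 + vecMulVec v φ) = Z := by rw [mul_add, mul_one, hZA, add_zero]
    have e2 : Z * (1 + vecMulVec w ψ) = Z := by rw [mul_add, mul_one, hZB, add_zero]
    rw [hP, Matrix.SpecialLinearGroup.coe_mul, hs.2.2.2, ht.2.2.2, ← mul_assoc, e1, e2]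
  have hZQ : Z * Q = Z := by
    have e1 : Z * (1 + vecMulVec v φ) = Z := by rw [mul_add, mul_one, hZA, add_zero]
    have e2 : Z * (1 + vecMulVec w ψ) = Z := by rw [mul_add, mul_one, hZB, add_zero]
    rw [hQ, Matrix.SpecialLinearGroup.coe_mul, hs.2.2.2, ht.2.2.2, ← mul_assoc, e2, e1]
  -- Z = S (P - 1)
  obtain ⟨S, hS⟩ : ∃ S : Matrix ι ι F, Z = S * (P - 1) := by
    refine ⟨∑ i ∈ Finset.range k, P ^ i, ?_⟩
    rw [geom_sum_mul, hZ, hz, Matrix.SpecialLinearGroup.coe_pow]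
  have h5 : ((φ ⬝ᵥ w) * (ψ ⬝ᵥ v)) • Z = 0 := by
    have h6 := key_identity hs ht
    rw [← hP, ← hQ] at h6
    have h7 : Z * (P + Q) = ((φ ⬝ᵥ w) * (ψ ⬝ᵥ v)) • Z := by
      conv_lhs => rw [hS, mul_assoc, h6, mul_smul_comm, ← hS]
    rw [← h7, mul_add, hZP, hZQ, add_self_mat]
  rcases smul_eq_zero.mp h5 with h6 | h6
  · exact mul_ne_zero h1 h2 h6
  · apply hz1
    apply Subtype.ext
    rw [hZ, sub_eq_zero] at h6
    rw [h6]; rfl

theorem pair_three {s t : SpecialLinearGroup ι F} {v φ w ψ : ι → F} (hs : IsTvv s v φ)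
    (ht : IsTvv t w ψ) (h1 : φ ⬝ᵥ w = 1) (h2 : ψ ⬝ᵥ v = 1) : (s * t) ^ 3 = 1 := by
  have h6 := key_identity hs ht
  rw [h1, h2, one_mul, one_smul] at h6
  set P : Matrix ι ι F := ((s * t : SpecialLinearGroup ι F) : Matrix ι ι F) with hP
  set Q : Matrix ι ι F := ((t * s : SpecialLinearGroup ι F) : Matrix ι ι F) with hQ
  have hPQ : P * Q = 1 := by
    rw [hP, hQ, ← Matrix.SpecialLinearGroup.coe_mul]
    have : s * t * (t * s) = 1 := by rw [mul_assoc, ← mul_assoc t t s, ht.sq, one_mul, hs.sq]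
    rw [this]; rfl
  have hQP : Q * P = 1 := by
    rw [hP, hQ, ← Matrix.SpecialLinearGroup.coe_mul]
    have : t * s * (s * t) = 1 := by rw [mul_assoc, ← mul_assoc s s t, hs.sq, one_mul, ht.sq]
    rw [this]; rfl
  -- (P - 1)(P + Q) = P^2 + PQ - P - Q
  have h7 : P * P = Q := by
    have e1 : (P - 1) * (P + Q) = P * P + P * Q - P - Q := by noncomm_ring
    rw [e1, hPQ] at h6
    have e2 : P * P - Q = (P * P + 1 - P - Q) - (P - 1) + (P + P) - (1 + 1) := by abel
    have e3 : P * P - Q = 0 := by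
      rw [e2, h6]
      simp only [sub_self, add_self_mat, add_zero, sub_zero]
    exact sub_eq_zero.mp e3
  apply Subtype.ext
  rw [Matrix.SpecialLinearGroup.coe_pow, ← hP, pow_succ, pow_two, h7, hQP]
  rfl

end Cfsg.Agent.RI

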