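import Cfsg.Agent.RI.Comp

set_option autoImplicit false

/-!
# Root involutions III: the key sequence lemma, classes with the same odd partners
-/

namespace Cfsg.Agent.RI

open Cfsg
open scoped commutatorElement

variable {G : Type*} [Group G] {D : Set G}

/-- the commutator (p q)^2 -/
def cm (p q : G) : G := p * q * p * q

theorem cm_facts (hD : IsRootInvolutionSet D) {p q : G} (hp : p ∈ D) (hq : q ∈ D) (h : Fr p q) :
    cm p q ∈ D ∧ Commute (cm p q) p ∧ Commute (cm p q) q ∧ q * p * q = p * cm p q ∧ p * q * p = q * cm p q :=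
  four hD hp hq h

section Seq

variable (a b x : G)

/-- the letters: x, a, x, a, ... -/
def letter (n : ℕ) : G := if Even n then x else a

/-- the sequence b, [b,x], [b,x,a], ... -/
def gs : ℕ → G
  | 0 => b
  | n + 1 => cm (gs n) (letter a x n)

variable {a b x}

theorem letter_mem (ha : a ∈ D) (hx : x ∈ D) (n : ℕ) : letter a x n ∈ D := by
  unfold letter; split <;> assumption

theorem letter_add_two (n : ℕ) : letter a x (n + 2) = letter a x n := by
  unfold letter
  simp [Nat.even_add]

theorem letter_eq_or (n i : ℕ) : letter a x n = letter a x i ∨ letter a x n = letter a x (i + 1) := by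
  unfold letter
  by_cases h1 : Even n <;> by_cases h2 : Even i <;> simp [h1, h2, Nat.even_add_one]

structure SeqInv (D : Set G) (a b x : G) (n : ℕ) : Prop where
  mem : gs a b x n ∈ D
  comm : Commute (gs a b x n) (letter a x (n + 1))
  fr : Fr (gs a b x n) (letter a x n)
  cc : ∀ i ≤ n, ∀ j ≤ n, Commute (gs a b x i) (gs a b x j)

theorem od_letters (hD : IsRootInvolutionSet D) (ha : a ∈ D) (hx : x ∈ D) (hax : Od x a) (n : ℕ) :
    Od (letter a x n) (letter a x (n + 1)) := by
  unfold letter
  by_cases h1 : Even n
  · simp only [h1, if_true, Nat.even_add_one, not_true, if_false]; exact hax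
  · simp only [h1, Nat.even_add_one, not_false_eq_true, if_true, if_false]; exact hax.symm hD hx ha

theorem seqInv (hD : IsRootInvolutionSet D) (ha : a ∈ D) (hb : b ∈ D) (hx : x ∈ D) (hab : Commute a b)
    (hax : Od x a) (hbx : Fr b x) : ∀ n, SeqInv D a b x n ∧ ∀ m ≤ n, SeqInv D a b x m := by
  intro n
  induction n with
  | zero =>
    have : SeqInv D a b x 0 := by
      refine ⟨hb, ?_, ?_, ?_⟩
      · show Commute b (letter a x 1)
        have : letter a x 1 = a := by unfold letter; simp
        rw [this]; exact hab.symm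
      · show Fr b (letter a x 0)
        have : letter a x 0 = x := by unfold letter; simp
        rw [this]; exact hbx
      · intro i hi j hj
        obtain rfl : i = 0 := by omega
        obtain rfl : j = 0 := by omega
        exact Commute.refl _
    refine ⟨this, fun m hm => ?_⟩
    obtain rfl : m = 0 := by omega
    exact this
  | succ n ih =>
    obtain ⟨ihn, ihm⟩ := ih
    have hr := letter_mem ha hx n
    have hr1 := letter_mem ha hx (n + 1)
    obtain ⟨hz, hz1, hz2, hz3, hz4⟩ := cm_facts hD ihn.mem hr ihn.fr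
    have hg : gs a b x (n + 1) = cm (gs a b x n) (letter a x n) := rfl
    have hcommn : ∀ i ≤ n, Commute (gs a b x (n + 1)) (gs a b x i) := by
      intro i hi
      rcases Nat.lt_or_eq_of_le hi with hi' | rfl
      · -- g (n+1) = g n * (r g n r)
        have h1 : gs a b x (n + 1) = gs a b x n * (letter a x n * gs a b x n * letter a x n) := by
          rw [hz3, ← mul_assoc, sq hD ihn.mem, one_mul, hg]
        rw [h1]
        refine Commute.mul_left (ihn.cc n le_rfl i hi) ?_
        -- r g n r commutes with g i iff g n commutes with r g i r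
        have h2 : Commute (gs a b x n) (letter a x n * gs a b x i * letter a x n) := by
          rcases letter_eq_or (a := a) (x := x) n i with h | h
          · rw [h]
            have h3 := cm_facts hD (ihm i hi).mem (letter_mem ha hx i) (ihm i hi).fr
            rw [h3.2.2.2.1]
            exact Commute.mul_right (ihn.cc n le_rfl i hi) (ihn.cc n le_rfl (i + 1) hi')
          · rw [h]
            have h3 := (ihm i hi).comm
            have h4 : letter a x (i + 1) * gs a b x i * letter a x (i + 1) = gs a b x i := by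
              rw [← h3.eq, mul_assoc, sq hD (letter_mem ha hx (i + 1)), mul_one]
            rw [h4]
            exact ihn.cc n le_rfl i hi
        have h3 := h2.map (MulAut.conj (letter a x n)).toMonoidHom
        simp only [MulEquiv.toMonoidHom_eq_coe, MonoidHom.coe_coe, MulAut.conj_apply, inv_eq hD hr] at h3
        simp only [mul_assoc, sq hD hr, mul_one, sqx hD hr] at h3
        simpa only [mul_assoc] using h3
      · exact hz1
    have hcomm : Commute (gs a b x (n + 1)) (letter a x (n + 1 + 1)) := by
      rw [letter_add_two]; exact hz2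
    -- not odd
    have hprod : letter a x n * gs a b x n * letter a x n ∈ D := cj hD ihn.mem hr
    have hline : gs a b x (n + 1) * gs a b x n ∈ D := by
      rw [hg, hz1.eq, ← hz3]; exact hprod
    have hfr : Fr (gs a b x (n + 1)) (letter a x (n + 1)) := by
      rcases trich hD hz hr1 with h | h | h
      · exfalso
        -- commutes with both letters
        have hod := od_letters hD ha hx hax n
        refine line_aux hD (a := letter a x n) (d := letter a x (n + 1)) (c := gs a b x (n + 1))
          (e := letter a x n * gs a b x (n + 1)) hr hr1 ?_ (hod.symm hD hr hr1) (sq hD hz) (ne_one hD hz) hz2 h rfl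
        rw [hg, ← hz4]; exact cj hD hr ihn.mem
      · exfalso
        have h' := h.symm hD hz hr1
        exact line_not_comm hD hz ihn.mem hline hz1 hr1 h' ihn.comm.symm
      · exact h
    have hnew : SeqInv D a b x (n + 1) := by
      refine ⟨hz, hcomm, hfr, ?_⟩
      intro i hi j hj
      rcases Nat.lt_or_eq_of_le hi with hi' | rfl <;> rcases Nat.lt_or_eq_of_le hj with hj' | rfl
      · exact ihn.cc i (by omega) j (by omega)
      · exact (hcommn i (by omega)).symm
      · exact hcommn j (by omega)
      · exact Commute.refl _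
    refine ⟨hnew, fun m hm => ?_⟩
    rcases Nat.lt_or_eq_of_le hm with hm' | rfl
    · exact ihm m (by omega)
    · exact hnew

/-- injectivity of one step -/
theorem gs_inj (hD : IsRootInvolutionSet D) (ha : a ∈ D) (hb : b ∈ D) (hx : x ∈ D) (hab : Commute a b) (habD : a * b ∈ D)
    (hax : Od x a) (hbx : Fr b x) {n m : ℕ} (hnm : letter a x n = letter a x m)
    (hnm' : letter a x (n + 1) = letter a x (m + 1))
    (h : gs a b x (n + 1) = gs a b x (m + 1)) : gs a b x n = gs a b x m := by
  have I := fun k => (seqInv hD ha hb hx hab hax hbx k).1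
  have hcc : ∀ i j, Commute (gs a b x i) (gs a b x j) := fun i j =>
    (I (max i j)).cc i (le_max_left _ _) j (le_max_right _ _)
  by_contra hne
  set y := gs a b x n * gs a b x m with hy
  have hy1 : y ≠ 1 := by
    intro h1
    apply hne
    have := eq_inv_of_mul_eq_one_left h1
    rwa [inv_eq hD (I m).mem] at this
  have hyy : y * y = 1 := by
    rw [hy, mul_assoc, ← mul_assoc (gs a b x m) (gs a b x n), (hcc m n).eq, mul_assoc, sq hD (I m).mem, mul_one, sq hD (I n).mem]
  have hyr' : Commute y (letter a x (n + 1)) := by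
    refine Commute.mul_left (I n).comm ?_
    rw [hnm']; exact (I m).comm
  have fn := cm_facts hD (I n).mem (letter_mem ha hx n) (I n).fr
  have fm := cm_facts hD (I m).mem (letter_mem ha hx m) (I m).fr
  have hr := letter_mem (a := a) (x := x) ha hx n
  have hyr : Commute y (letter a x n) := by
    -- r y r = y
    have h1 : letter a x n * gs a b x n * letter a x n = gs a b x n * gs a b x (n + 1) := fn.2.2.2.1
    have h2 : letter a x n * gs a b x m * letter a x n = gs a b x m * gs a b x (n + 1) := by
      rw [h, hnm]; exact fm.2.2.2.1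
    have h3 : letter a x n * y * letter a x n = y := by
      have h4 : letter a x n * y * letter a x n =
          (letter a x n * gs a b x n * letter a x n) * (letter a x n * gs a b x m * letter a x n) := by
        rw [hy]; simp only [mul_assoc, sqx hD hr]
      rw [h4, h1, h2, mul_assoc, ← mul_assoc (gs a b x (n + 1)) (gs a b x m), (hcc (n + 1) m).eq, mul_assoc,
        sq hD (I (n + 1)).mem, mul_one]
    show y * letter a x n = letter a x n * y
    conv_lhs => rw [← h3]
    simp only [mul_assoc, sq hD hr, mul_one]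
  -- y commutes with a and x
  have hya : Commute y a ∧ Commute y x := by
    unfold letter at hyr hyr'
    by_cases hn : Even n
    · simp only [hn, if_true, Nat.even_add_one, not_true, if_false] at hyr hyr'
      exact ⟨hyr', hyr⟩
    · simp only [hn, Nat.even_add_one, not_false_eq_true, if_true, if_false] at hyr hyr'
      exact ⟨hyr, hyr'⟩
  -- some letter times y is in D
  have hkey : a * y ∈ D ∨ x * y ∈ D := by
    -- for an index k ≥ 1 : s * g k ∈ D for the letter s = letter (k-1)
    have hstep : ∀ k j, letter a x k = letter a x j → letter a x k * (gs a b x (k + 1) * gs a b x (j + 1)) ∈ D := by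
      intro k j hkj
      have f1 := cm_facts hD (I k).mem (letter_mem ha hx k) (I k).fr
      have f2 := cm_facts hD (I j).mem (letter_mem ha hx j) (I j).fr
      have h1 : gs a b x k * letter a x k * gs a b x k = letter a x k * gs a b x (k + 1) := f1.2.2.2.2
      have h2 : gs a b x j * letter a x k * gs a b x j = letter a x k * gs a b x (j + 1) := by
        rw [hkj]; exact f2.2.2.2.2
      have h3 : gs a b x j * (letter a x k * gs a b x (k + 1)) * gs a b x j = letter a x k * (gs a b x (k + 1) * gs a b x (j + 1)) := by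
        have : gs a b x j * (letter a x k * gs a b x (k + 1)) * gs a b x j =
            (gs a b x j * letter a x k * gs a b x j) * gs a b x (k + 1) := by
          rw [mul_assoc (gs a b x j * letter a x k), (hcc j (k + 1)).eq]; simp only [mul_assoc]
        rw [this, h2, mul_assoc, (hcc (j + 1) (k + 1)).eq]
      rw [← h3, ← h1]
      exact cj hD (cj hD (letter_mem ha hx k) (I k).mem) (I j).mem
    have hzero : ∀ j, letter a x (j + 1) = letter a x 0 → a * (b * gs a b x (j + 1)) ∈ D := by
      intro j hj
      have hja : letter a x j = a := by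
        unfold letter at hj ⊢
        by_cases he : Even j
        · simp [Nat.even_add_one, he] at hj
          exfalso; exact hax.1 hj.symm
        · simp [he]
      have f2 := cm_facts hD (I j).mem (letter_mem ha hx j) (I j).fr
      have h2 : gs a b x j * letter a x j * gs a b x j = letter a x j * gs a b x (j + 1) := f2.2.2.2.2
      rw [hja] at h2
      have h3 : gs a b x j * (a * b) * gs a b x j = a * (b * gs a b x (j + 1)) := by
        have hb0 : Commute b (gs a b x j) := hcc 0 j
        have hb1 : Commute b (gs a b x (j + 1)) := hcc 0 (j + 1)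
        have : gs a b x j * (a * b) * gs a b x j = (gs a b x j * a * gs a b x j) * b := by
          simp only [mul_assoc]; rw [hb0.eq]
        rw [this, h2, mul_assoc, hb1.eq]
      rw [← h3]; exact cj hD habD (I j).mem
    have hlet : ∀ k, letter a x k = a ∨ letter a x k = x := by
      intro k; unfold letter; split <;> simp
    rcases n with _ | n <;> rcases m with _ | m
    · exact absurd rfl hne
    · left; exact hzero m hnm.symm
    · left
      have := hzero n hnm
      rw [hy, (hcc (n + 1) 0).eq]; exact this
    · have h1 : letter a x n = letter a x m := by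
        rw [← letter_add_two n, ← letter_add_two m]; exact hnm'
      have h2 := hstep n m h1
      rcases hlet n with h3 | h3
      · left; rwa [h3] at h2
      · right; rwa [h3] at h2
  rcases hkey with hk | hk
  · exact line_aux hD ha hx hk hax hyy hy1 hya.1 hya.2 rfl
  · exact line_aux hD hx ha hk (hax.symm hD hx ha) hyy hy1 hya.2 hya.1 rfl

/-- Lemma B: if {a, b, ab} is a line of D, x and a have product of odd order, x and b have product of order 4, then some
member u of D commuting with x and b interchanges a and ab. -/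
theorem swap_exists [Finite G] (hD : IsRootInvolutionSet D) (ha : a ∈ D) (hb : b ∈ D) (hx : x ∈ D) (hab : Commute a b)
    (habD : a * b ∈ D) (hax : Od x a) (hbx : Fr b x) :
    ∃ u ∈ D, Commute u x ∧ Commute u b ∧ u * a * u = a * b ∧ Fr u a ∧ u * x ∈ D := by
  have I := fun k => (seqInv hD ha hb hx hab hax hbx k).1
  have hcc : ∀ i j, Commute (gs a b x i) (gs a b x j) := fun i j =>
    (I (max i j)).cc i (le_max_left _ _) j (le_max_right _ _)
  -- a repetition among even indices
  obtain ⟨i, j, hij, hgij⟩ := Finite.exists_ne_map_eq_of_infinite (fun k : ℕ => gs a b x (2 * k))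
  wlog hlt : i < j generalizing i j
  · exact this j i hij.symm hgij.symm (by omega)
  -- go down
  have hlett : ∀ p q : ℕ, letter a x (p + 2 * q) = letter a x p := by
    intro p q; unfold letter; simp [Nat.even_add]
  have hdown : ∀ p q : ℕ, gs a b x (p + 2 * q) = gs a b x p → gs a b x (2 * q) = gs a b x 0 := by
    intro p q
    induction p with
    | zero => intro h; simpa using h
    | succ p ih =>
      intro h
      apply ih
      refine gs_inj hD ha hb hx hab habD hax hbx (hlett p q) ?_ ?_
      · have := hlett (p + 1) q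
        rw [← this]; congr 1; ring
      · have e : p + 2 * q + 1 = p + 1 + 2 * q := by ring
        rw [e]; exact h
  have h0 : gs a b x (2 * (j - i)) = gs a b x 0 := by
    apply hdown (2 * i)
    have e : 2 * i + 2 * (j - i) = 2 * j := by omega
    rw [e]; exact hgij.symm
  obtain ⟨q, hq⟩ : ∃ q, 2 * (j - i) = q + 1 := ⟨2 * (j - i) - 1, by omega⟩
  rw [hq] at h0
  have hodd : ¬ Even q := by
    intro he
    have : Even (q + 1) := by rw [← hq]; exact even_two_mul _
    rw [Nat.even_add_one] at this
    exact this he
  have hla : letter a x q = a := by unfold letter; simp [hodd]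
  have hlx : letter a x (q + 1) = x := by unfold letter; simp [Nat.even_add_one, hodd]
  have f := cm_facts hD (I q).mem (letter_mem ha hx q) (I q).fr
  rw [hla] at f
  have hgq : cm (gs a b x q) a = b := by
    have : gs a b x (q + 1) = cm (gs a b x q) (letter a x q) := rfl
    rw [hla] at this
    rw [← this]; exact h0
  have hcx : Commute (gs a b x q) x := by have := (I q).comm; rwa [hlx] at this
  refine ⟨gs a b x q, (I q).mem, hcx, hcc q 0, ?_, ?_, ?_⟩
  · rw [hgq] at f; exact f.2.2.2.2
  · have := (I q).fr; rwa [hla] at this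
  · -- q ≥ 1
    obtain ⟨r, rfl⟩ : ∃ r, q = r + 1 := by
      rcases q with _ | r
      · exact absurd (by decide) hodd
      · exact ⟨r, rfl⟩
    have f2 := cm_facts hD (I r).mem (letter_mem ha hx r) (I r).fr
    have hlr : letter a x r = x := by rw [← letter_add_two r]; exact hlx
    rw [hlr] at f2
    have hgr : gs a b x (r + 1) = cm (gs a b x r) x := by
      have : gs a b x (r + 1) = cm (gs a b x r) (letter a x r) := rfl
      rwa [hlr] at this
    rw [hcx.eq, hgr, ← f2.2.2.2.2]
    exact cj hD hx (I r).mem

end Seq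


/-! ### Members with the same odd partners -/

/-- same odd partners -/
def SameOdd (D : Set G) (a b : G) : Prop := ∀ x ∈ D, Od x a ↔ Od x b

theorem SameOdd.refl (a : G) : SameOdd D a a := fun _ _ => Iff.rfl

theorem SameOdd.symm {a b : G} (h : SameOdd D a b) : SameOdd D b a := fun x hx => (h x hx).symm

theorem SameOdd.trans {a b c : G} (h : SameOdd D a b) (h' : SameOdd D b c) : SameOdd D a c :=
  fun x hx => (h x hx).trans (h' x hx)

theorem SameOdd.conj (hD : IsRootInvolutionSet D) {a b : G} (h : SameOdd D a b) (g : G) :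
    SameOdd D (g * a * g⁻¹) (g * b * g⁻¹) := by
  intro x hx
  have h1 := h (g⁻¹ * x * g⁻¹⁻¹) (hD.conj_mem x hx g⁻¹)
  have e : g * (g⁻¹ * x * g⁻¹⁻¹) * g⁻¹ = x := by group
  have h2 : Od x (g * a * g⁻¹) ↔ Od (g⁻¹ * x * g⁻¹⁻¹) a := by
    rw [← Od.conj_iff (a := g⁻¹ * x * g⁻¹⁻¹) g, e]
  have h3 : Od x (g * b * g⁻¹) ↔ Od (g⁻¹ * x * g⁻¹⁻¹) b := by
    rw [← Od.conj_iff (a := g⁻¹ * x * g⁻¹⁻¹) g, e]
  rw [h2, h3]; exact h1

/-- D is a single class -/
def OneClass (D : Set G) : Prop := ∀ a ∈ D, ∀ b ∈ D, ∃ g : G, g * a * g⁻¹ = b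

theorem oneClass_of_connected (hD : IsRootInvolutionSet D) (hc : IsConnectedSet (OddAdj D) D) : OneClass D := by
  intro a ha b hb
  have h := hc a ha b hb
  clear hb
  induction h with
  | refl => exact ⟨1, by group⟩
  | @tail p q _ h2 ih =>
    obtain ⟨g, hg⟩ := ih
    rw [oddAdj_iff] at h2
    obtain ⟨k, hk⟩ := h2.2.2.conj_elt hD h2.1 h2.2.1
    refine ⟨(p * q) ^ k * g, ?_⟩
    have e : (p * q) ^ k * g * a * ((p * q) ^ k * g)⁻¹ = (p * q) ^ k * (g * a * g⁻¹) * ((p * q) ^ k)⁻¹ := by
      simp only [mul_inv_rev, mul_assoc]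
    rw [e, hg, hk]

/-- inclusion of the sets of odd partners is equality -/
theorem sameOdd_of_subset [Finite G] (hD : IsRootInvolutionSet D) (h1 : OneClass D) {a b : G} (ha : a ∈ D) (hb : b ∈ D)
    (h : ∀ x ∈ D, Od x a → Od x b) : SameOdd D a b := by
  set A : G → Set G := fun a => {x | x ∈ D ∧ Od x a} with hA
  obtain ⟨g, rfl⟩ := h1 a ha b hb
  have himg : (fun x => g * x * g⁻¹) '' (A a) = A (g * a * g⁻¹) := by
    ext x
    constructor
    · rintro ⟨y, ⟨hy1, hy2⟩, rfl⟩
      exact ⟨hD.conj_mem y hy1 g, hy2.conj g⟩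
    · rintro ⟨hx1, hx2⟩
      refine ⟨g⁻¹ * x * g⁻¹⁻¹, ⟨hD.conj_mem x hx1 g⁻¹, ?_⟩, by group⟩
      rw [← Od.conj_iff g]
      have e : g * (g⁻¹ * x * g⁻¹⁻¹) * g⁻¹ = x := by group
      rw [e]; exact hx2
  have hcard : (A (g * a * g⁻¹)).ncard = (A a).ncard := by
    rw [← himg]
    exact Set.ncard_image_of_injective _ (fun x y hxy => by simpa using hxy)
  have hsub : A a ⊆ A (g * a * g⁻¹) := fun x hx => ⟨hx.1, h x hx.1 hx.2⟩
  have heq := Set.eq_of_subset_of_ncard_le hsub hcard.le (Set.toFinite _)
  intro x hx
  refine ⟨h x hx, fun h2 => ?_⟩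
  have : x ∈ A a := by rw [heq]; exact ⟨hx, h2⟩
  exact this.2

theorem exists_od_of_not_same [Finite G] (hD : IsRootInvolutionSet D) (h1 : OneClass D) {a b : G} (ha : a ∈ D) (hb : b ∈ D)
    (h : ¬ SameOdd D a b) : ∃ x ∈ D, Od x a ∧ ¬ Od x b := by
  by_contra hcon
  push Not at hcon
  exact h (sameOdd_of_subset hD h1 ha hb hcon)

/-- closure under products in D -/
theorem sameOdd_mul [Finite G] (hD : IsRootInvolutionSet D) (h1 : OneClass D) {a b : G} (ha : a ∈ D) (hb : b ∈ D)
    (hab : Commute a b) (habD : a * b ∈ D) (h : SameOdd D a b) : SameOdd D (a * b) a := by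
  refine sameOdd_of_subset hD h1 habD ha fun x hx h2 => ?_
  rcases line_od hD ha hb habD hab hx h2 with h3 | h3
  · exact h3
  · exact (h x hx).mpr h3

theorem not_od_of_same (hD : IsRootInvolutionSet D) {a b : G} (ha : a ∈ D) (h : SameOdd D a b) : ¬ Od a b := by
  intro h2
  exact ((h a ha).mpr h2).1 rfl

/-- the class has a member central in the subgroup generated by the class -/
theorem exists_central [Finite G] (hD : IsRootInvolutionSet D) (h1 : OneClass D) {a : G} (ha : a ∈ D) :
    ∃ t ∈ D, SameOdd D t a ∧ ∀ e ∈ D, SameOdd D e a → Commute t e := by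
  set T : Set G := {e | e ∈ D ∧ SameOdd D e a} with hT
  have hTcj : ∀ p ∈ T, ∀ q ∈ T, q * p * q ∈ T := by
    rintro p ⟨hp, hpa⟩ q ⟨hq, hqa⟩
    refine ⟨cj hD hp hq, ?_⟩
    have h2 := (hpa.trans hqa.symm).conj hD q
    have e1 : q * q * q⁻¹ = q := by group
    rw [e1, inv_eq hD hq] at h2
    exact h2.trans hqa
  have hp2 : IsPGroup 2 ↥(Subgroup.closure T) := by
    refine isPGroup_closure' (fun p hp => sq hD hp.1) hTcj ?_
    rintro p ⟨hp, hpa⟩ q ⟨hq, hqa⟩
    exact pow_four hD hp hq (not_od_of_same hD hp (hpa.trans hqa.symm))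
  have hnil := hp2.isNilpotent
  obtain ⟨n, hn⟩ := (Subgroup.isNilpotent_iff_lowerCentralSeries (Subgroup.closure T)).mp hnil
  have hex : ∃ n, ∀ t ∈ T, t ∉ (Subgroup.closure T).lowerCentralSeries n := by
    refine ⟨n, fun t ht h => ?_⟩
    rw [hn, Subgroup.mem_bot] at h
    exact ne_one hD ht.1 h
  classical
  have hspec := Nat.find_spec hex
  have hmin : ∀ m < Nat.find hex, ¬ ∀ t ∈ T, t ∉ (Subgroup.closure T).lowerCentralSeries m := fun m hm => Nat.find_min hex hm
  obtain ⟨m, hm⟩ : ∃ m, Nat.find hex = m + 1 := by
    rcases h : Nat.find hex with _ | m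
    · rw [h] at hspec
      exact absurd (Subgroup.subset_closure (show a ∈ T from ⟨ha, SameOdd.refl a⟩)) (hspec a ⟨ha, SameOdd.refl a⟩)
    · exact ⟨m, rfl⟩
  have h2 := hmin m (by omega)
  push Not at h2
  obtain ⟨t, ht, htm⟩ := h2
  rw [hm] at hspec
  refine ⟨t, ht.1, ht.2, fun e he hea => ?_⟩
  rcases trich hD ht.1 he with h | h | h
  · exact h
  · exact absurd h (not_od_of_same hD ht.1 (ht.2.trans hea.symm))
  · exfalso
    obtain ⟨hz, hz1, hz2, hz3, hz4⟩ := cm_facts hD ht.1 he h
    have hete : e * t * e ∈ T := hTcj t ht e ⟨he, hea⟩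
    have hcm : cm t e = t * (e * t * e) := by unfold cm; simp only [mul_assoc]
    have hcomm2 : Commute t (e * t * e) := by
      rw [hz3]; exact (Commute.refl t).mul_right hz1.symm
    have hs := sameOdd_mul hD h1 ht.1 hete.1 hcomm2 (by rw [← hcm]; exact hz) (ht.2.trans hete.2.symm)
    rw [← hcm] at hs
    refine hspec (cm t e) ⟨hz, hs.trans ht.2⟩ ?_
    rw [Subgroup.lowerCentralSeries_succ]
    have h5 : cm t e = ⁅t, e⁆ := by
      rw [commutatorElement_def, inv_eq hD ht.1, inv_eq hD he]; rfl
    rw [h5]
    exact Subgroup.commutator_mem_commutator htm (Subgroup.subset_closure ⟨he, hea⟩)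

/-- members with the same odd partners commute -/
theorem same_comm [Finite G] (hD : IsRootInvolutionSet D) (hc : IsConnectedSet (OddAdj D) D) {a b : G} (ha : a ∈ D)
    (hb : b ∈ D) (h : SameOdd D a b) : Commute a b := by
  have h1 := oneClass_of_connected hD hc
  by_cases hab : a = b
  · rw [hab]
  obtain ⟨t, ht, hta, hcent⟩ := exists_central hD h1 ha
  obtain ⟨x, hx, hax⟩ : ∃ x ∈ D, Od a x := by
    have h2 := hc a ha b hb
    rcases Relation.ReflTransGen.cases_head h2 with h3 | ⟨c, h3, -⟩
    · exact absurd h3 hab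
    · rw [oddAdj_iff] at h3; exact ⟨c, h3.2.1, h3.2.2⟩
  have hxa := hax.symm hD ha hx
  have hxt : Od x t := (hta x hx).mpr hxa
  obtain ⟨k1, hk1⟩ := hax.conj_elt hD ha hx
  obtain ⟨k2, hk2⟩ := (hxt.symm hD hx ht).conj_elt hD ht hx
  set g1 := (a * x) ^ k1
  set g2 := (t * x) ^ k2
  set g := g2⁻¹ * g1 with hg
  -- g a g⁻¹ = t
  have hga : g * a * g⁻¹ = t := by
    have : g * a * g⁻¹ = g2⁻¹ * (g1 * a * g1⁻¹) * g2 := by rw [hg]; group
    rw [this, hk1, ← hk2]; group
  have hgb : SameOdd D (g * b * g⁻¹) a := by
    have h3 := (h.symm.conj hD g)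
    rw [hga] at h3
    exact h3.trans hta
  have h4 := hcent (g * b * g⁻¹) (hD.conj_mem b hb g) hgb
  rw [← hga] at h4
  have h5 := h4.map (MulAut.conj g⁻¹).toMonoidHom
  simp only [MulEquiv.toMonoidHom_eq_coe, MonoidHom.coe_coe, MulAut.conj_apply] at h5
  have e1 : g⁻¹ * (g * a * g⁻¹) * g⁻¹⁻¹ = a := by group
  have e2 : g⁻¹ * (g * b * g⁻¹) * g⁻¹⁻¹ = b := by group
  rwa [e1, e2] at h5

/-- if u moves the class of t and has no odd product with t then the class of t and its conjugate commute -/
theorem comm_conj_class [Finite G] (hD : IsRootInvolutionSet D) (hc : IsConnectedSet (OddAdj D) D) {t u : G} (ht : t ∈ D)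
    (hu : u ∈ D) (hod : ¬ Od u t) (hns : ¬ SameOdd D (u * t * u) t) {s s' : G} (hs : s ∈ D) (hst : SameOdd D s t)
    (hs' : s' ∈ D) (hs't : SameOdd D s' (u * t * u)) : Commute s s' := by
  have h1 := oneClass_of_connected hD hc
  -- general facts: every p in the class of t commutes with u p u, and normalizes the class of u t u
  have key : ∀ p ∈ D, SameOdd D p t → Commute p (u * p * u) := by
    intro p hp hpt
    rcases trich hD hu hp with h | h | h
    · have : u * p * u = p := by rw [h.eq, mul_assoc, sq hD hu, mul_one]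
      rw [this]
    · exact absurd ((hpt u hu).mp h) hod
    · obtain ⟨-, hz1, hz2, hz3, hz4⟩ := cm_facts hD hu hp h
      rw [hz4]; exact (Commute.refl p).mul_right hz2.symm
  have hcju : ∀ p, SameOdd D p t → SameOdd D (u * p * u) (u * t * u) := by
    intro p hp
    have := hp.conj hD u
    rwa [inv_eq hD hu] at this
  have hcju' : ∀ p, SameOdd D p (u * t * u) → SameOdd D (u * p * u) t := by
    intro p hp
    have := hp.conj hD u
    rw [inv_eq hD hu] at this
    have e : u * (u * t * u) * u = t := by simp only [mul_assoc, sqx hD hu, sq hD hu, mul_one]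
    rwa [e] at this
  -- p in class t, q in class u t u: p q p in class u t u
  have norm1 : ∀ p ∈ D, SameOdd D p t → ∀ q ∈ D, SameOdd D q (u * t * u) → SameOdd D (p * q * p) (u * t * u) := by
    intro p hp hpt q hq hqt
    have h3 : SameOdd D q (u * p * u) := hqt.trans (hcju p hpt).symm
    have h4 := h3.conj hD p
    rw [inv_eq hD hp] at h4
    have h5 : p * (u * p * u) * p = u * p * u := by
      rw [(key p hp hpt).eq, mul_assoc, sq hD hp, mul_one]
    rw [h5] at h4
    exact h4.trans (hcju p hpt)
  have norm2 : ∀ p ∈ D, SameOdd D p t → ∀ q ∈ D, SameOdd D q (u * t * u) → SameOdd D (q * p * q) t := by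
    intro p hp hpt q hq hqt
    have hq' := cj hD hq hu
    have hqt' := hcju' q hqt
    have h3 := norm1 (u * q * u) hq' hqt' (u * p * u) (cj hD hp hu) (hcju p hpt)
    have h4 := hcju' _ h3
    have e : u * (u * q * u * (u * p * u) * (u * q * u)) * u = q * p * q := by
      simp only [mul_assoc, sqx hD hu, sq hD hu, mul_one]
    rwa [e] at h4
  -- now s, s'
  rcases trich hD hs hs' with h | h | h
  · exact h
  · exfalso
    -- s' s s' in the class of t, commutes with s
    have h2 := norm2 s hs hst s' hs' hs't
    have h3 := same_comm hD hc hs (cj hD hs hs') (hst.trans h2.symm)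
    have h4 : (s * s') ^ 4 = 1 := by
      have h5 : (s * s') ^ 2 = s * (s' * s * s') := by rw [pow_two]; simp only [mul_assoc]
      rw [show 4 = 2 * 2 by norm_num, pow_mul, h5, pow_two, mul_assoc, ← mul_assoc (s' * s * s') s, ← h3.eq, mul_assoc s,
        sq hD (cj hD hs hs'), mul_one, sq hD hs]
    exact not_od_of_pow hD hs' h4 h
  · exfalso
    obtain ⟨hz, hz1, hz2, hz3, hz4⟩ := cm_facts hD hs hs' h
    have h2 := norm2 s hs hst s' hs' hs't
    have h3 := norm1 s hs hst s' hs' hs't
    have hcm : cm s s' = s * (s' * s * s') := by unfold cm; simp only [mul_assoc]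
    have hcm' : cm s s' = s' * (s * s' * s) := by rw [hz4, sqx hD hs']
    have hc2 : Commute s (s' * s * s') := by rw [hz3]; exact (Commute.refl s).mul_right hz1.symm
    have hc3 : Commute s' (s * s' * s) := by rw [hz4]; exact (Commute.refl s').mul_right hz2.symm
    have h4 := sameOdd_mul hD h1 hs (cj hD hs hs') hc2 (by rw [← hcm]; exact hz) (hst.trans h2.symm)
    have h5 := sameOdd_mul hD h1 hs' (cj hD hs' hs) hc3 (by rw [← hcm']; exact hz) (hs't.trans h3.symm)
    rw [← hcm] at h4
    rw [← hcm'] at h5
    exact hns ((hs't.symm.trans h5.symm).trans (h4.trans hst))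

/-- if f in D normalizes the class of e then f commutes with e -/
theorem norm_comm [Finite G] (hD : IsRootInvolutionSet D) (hc : IsConnectedSet (OddAdj D) D) {e f : G} (he : e ∈ D)
    (hf : f ∈ D) (h : SameOdd D (f * e * f) e) : Commute e f := by
  have h1 := oneClass_of_connected hD hc
  have hfe := cj hD he hf
  have hcomm := same_comm hD hc he hfe h.symm
  rcases trich hD he hf with h2 | h2 | h2
  · exact h2
  · exfalso
    have h4 : (e * f) ^ 4 = 1 := by
      have h5 : (e * f) ^ 2 = e * (f * e * f) := by rw [pow_two]; simp only [mul_assoc]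
      rw [show 4 = 2 * 2 by norm_num, pow_mul, h5, pow_two, mul_assoc, ← mul_assoc (f * e * f) e, ← hcomm.eq, mul_assoc e,
        sq hD hfe, mul_one, sq hD he]
    exact not_od_of_pow hD hf h4 h2
  · exfalso
    obtain ⟨hz, hz1, hz2, hz3, hz4⟩ := cm_facts hD he hf h2
    set z := cm e f with hzdef
    have hcm : z = e * (f * e * f) := by rw [hzdef]; unfold cm; simp only [mul_assoc]
    have hze : SameOdd D z e := by rw [hcm]; exact sameOdd_mul hD h1 he hfe hcomm (by rw [← hcm]; exact hz) h.symm
    -- b = f z = e f e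
    have hb : e * f * e ∈ D := cj hD hf he
    have hbz : e * f * e = f * z := hz4
    have hzf : z * (f * z) = f := by rw [← mul_assoc, hz2.eq, mul_assoc, sq hD hz, mul_one]
    have hzb : Commute z (f * z) := hz2.mul_right (Commute.refl z)
    -- f is not in the class of e
    have hfne : ¬ SameOdd D f e := fun h3 => h2.not_comm hD he hf (same_comm hD hc he hf h3.symm)
    have hbne : ¬ SameOdd D z (f * z) := by
      intro h3
      have hb' : f * z ∈ D := by rw [← hbz]; exact hb
      have h4 := sameOdd_mul hD h1 hz hb' hzb (by rw [hzf]; exact hf) h3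
      rw [hzf] at h4
      exact hfne (h4.trans hze)
    have hb' : f * z ∈ D := by rw [← hbz]; exact hb
    obtain ⟨x, hx, hxz, hxb⟩ := exists_od_of_not_same hD h1 hz hb' hbne
    have hxb' : Fr (f * z) x := by
      rcases trich hD hb' hx with h3 | h3 | h3
      · exfalso
        exact line_not_comm hD hz hb' (by rw [hzf]; exact hf) hzb hx hxz h3.symm
      · exact absurd (h3.symm hD hb' hx) hxb
      · exact h3
    obtain ⟨u, hu, hux, hub, huz, hfr, -⟩ := swap_exists hD hz hb' hx hzb (by rw [hzf]; exact hf) hxz hxb'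
    rw [hzf] at huz
    -- the class of f = u z u commutes with the class of z
    have hns : ¬ SameOdd D (u * z * u) z := by rw [huz]; exact fun h3 => hfne (h3.trans hze)
    have := comm_conj_class hD hc hz hu (fun h3 => hfr.not_od h3) hns (s := e) (s' := f) he hze.symm hf
      (by rw [huz]; exact SameOdd.refl f)
    exact h2.not_comm hD he hf this

theorem comm_of_same [Finite G] (hD : IsRootInvolutionSet D) (hc : IsConnectedSet (OddAdj D) D) {d e f : G} (hd : d ∈ D)
    (he : e ∈ D) (hf : f ∈ D) (h : SameOdd D d e) (hfd : Commute f d) : Commute f e := by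
  have h1 := h.conj hD f
  rw [inv_eq hD hf] at h1
  have h2 : f * d * f = d := by rw [hfd.eq, mul_assoc, sq hD hf, mul_one]
  rw [h2] at h1
  exact (norm_comm hD hc he hf (h1.symm.trans h)).symm

theorem same_iff [Finite G] (hD : IsRootInvolutionSet D) (hc : IsConnectedSet (OddAdj D) D) {d e : G} (hd : d ∈ D)
    (he : e ∈ D) : commutingMembers D d = commutingMembers D e ↔ SameOdd D d e := by
  constructor
  · intro h
    have hmem : ∀ x ∈ D, Commute x d ↔ Commute x e := by
      intro x hx
      have h2 : x ∈ commutingMembers D d ↔ x ∈ commutingMembers D e := by rw [h]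
      exact ⟨fun h3 => (h2.mp ⟨hx, h3⟩).2, fun h3 => (h2.mpr ⟨hx, h3⟩).2⟩
    have one : ∀ d e : G, d ∈ D → e ∈ D → (∀ x ∈ D, Commute x d ↔ Commute x e) → ∀ x ∈ D, Od x d → Od x e := by
      intro d e hd he hmem x hx hxd
      rcases trich hD hx he with h2 | h2 | h2
      · exact absurd ((hmem x hx).mpr h2) (hxd.not_comm hD hx hd)
      · exact h2
      · exfalso
        obtain ⟨hz, hz1, hz2, hz3, hz4⟩ := cm_facts hD hx he h2
        -- x e x commutes with e
        have h3 : Commute (x * e * x) e := by rw [hz4]; exact (Commute.refl e).mul_left hz2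
        have h4 := (hmem _ (cj hD he hx)).mpr h3
        -- d commutes with x e x, hence with x d x
        have h5 : Commute (x * d * x) e := by
          have := h4.symm.map (MulAut.conj x).toMonoidHom
          simp only [MulEquiv.toMonoidHom_eq_coe, MonoidHom.coe_coe, MulAut.conj_apply, inv_eq hD hx] at this
          have e1 : x * (x * e * x) * x = e := by simp only [mul_assoc, sqx hD hx, sq hD hx, mul_one]
          rwa [e1] at this
        have h6 := (hmem _ (cj hD hd hx)).mpr h5
        -- (d x)^4 = 1
        have h7 : (x * d) ^ 4 = 1 := by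
          have h8 : (x * d) ^ 2 = (x * d * x) * d := by rw [pow_two]; simp only [mul_assoc]
          rw [show 4 = 2 * 2 by norm_num, pow_mul, h8, pow_two, mul_assoc, ← mul_assoc d, ← h6.eq, mul_assoc (x * d * x) d d,
            sq hD hd, mul_one, sq hD (cj hD hd hx)]
        exact not_od_of_pow hD hd h7 hxd
    intro x hx
    exact ⟨one d e hd he hmem x hx, one e d he hd (fun x hx => (hmem x hx).symm) x hx⟩
  · intro h
    ext x
    constructor
    · rintro ⟨hx, h2⟩; exact ⟨hx, comm_of_same hD hc hd he hx h h2⟩
    · rintro ⟨hx, h2⟩; exact ⟨hx, comm_of_same hD hc he hd hx h.symm h2⟩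

theorem union_iff (hD : IsRootInvolutionSet D) {d e : G} (hd : d ∈ D) (he : e ∈ D) :
    commutingMembers D d ∪ fourPartners D d = commutingMembers D e ∪ fourPartners D e ↔ SameOdd D d e := by
  have key : ∀ d ∈ D, ∀ x ∈ D, x ∈ commutingMembers D d ∪ fourPartners D d ↔ ¬ Od x d := by
    intro d hd x hx
    constructor
    · rintro (h | h) h2
      · exact h2.not_comm hD hx hd h.2
      · exact (show Fr d x from h.2).not_od (h2.symm hD hx hd)
    · intro h
      rcases trich hD hx hd with h2 | h2 | h2
      · exact Or.inl ⟨hx, h2⟩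
      · exact absurd h2 h
      · exact Or.inr ⟨hx, h2.symm hD hx hd⟩
  constructor
  · intro h x hx
    have h1 := key d hd x hx
    have h2 := key e he x hx
    rw [h] at h1
    rw [h1] at h2
    tauto
  · intro h
    ext x
    by_cases hx : x ∈ D
    · rw [key d hd x hx, key e he x hx, h x hx]
    · constructor
      · rintro (h2 | h2) <;> exact absurd h2.1 hx
      · rintro (h2 | h2) <;> exact absurd h2.1 hx

/-- S5046 -/
theorem thm5046 [Finite G] (hD : IsRootInvolutionSet D) (hc : IsConnectedSet (OddAdj D) D) {d : G} (hd : d ∈ D) :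
    sameCommutingClass D d =
      {e | e ∈ D ∧ commutingMembers D d ∪ fourPartners D d = commutingMembers D e ∪ fourPartners D e} := by
  ext e
  constructor
  · rintro ⟨he, h⟩
    exact ⟨he, (union_iff hD hd he).mpr ((same_iff hD hc hd he).mp h)⟩
  · rintro ⟨he, h⟩
    exact ⟨he, (same_iff hD hc hd he).mpr ((union_iff hD hd he).mp h)⟩

end Cfsg.Agent.RI
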