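import Cfsg.Agent.RI.Same
import Cfsg.Prelude.Def_QuasithinSetup
import Cfsg.Agent.Solv.Core

set_option autoImplicit false

/-!
# Root involutions IV: order three, normal subgroups
-/

namespace Cfsg.Agent.RI

open Cfsg
open scoped commutatorElement

variable {G : Type*} [Group G] {D : Set G}

/-- the sets of commuting members differ iff the odd partners differ: existence of a partner of order 4 -/
theorem exists_four [Finite G] (hD : IsRootInvolutionSet D) (hc : IsConnectedSet (OddAdj D) D) {a b : G} (ha : a ∈ D)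
    (hb : b ∈ D) (hab : Commute a b) (habD : a * b ∈ D) (hne : ¬ SameOdd D a b) : ∃ x ∈ D, Od x a ∧ Fr b x := by
  have h1 := oneClass_of_connected hD hc
  obtain ⟨x, hx, hxa, hxb⟩ := exists_od_of_not_same hD h1 ha hb hne
  refine ⟨x, hx, hxa, ?_⟩
  rcases trich hD hb hx with h3 | h3 | h3
  · exact absurd h3.symm (line_not_comm hD ha hb habD hab hx hxa)
  · exact absurd (h3.symm hD hb hx) hxb
  · exact h3

theorem swap_of_not_same [Finite G] (hD : IsRootInvolutionSet D) (hc : IsConnectedSet (OddAdj D) D) {a b : G} (ha : a ∈ D)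
    (hb : b ∈ D) (hab : Commute a b) (habD : a * b ∈ D) (hne : ¬ SameOdd D a b) :
    ∃ u ∈ D, Commute u b ∧ u * a * u = a * b ∧ Fr u a := by
  obtain ⟨x, hx, hxa, hxb⟩ := exists_four hD hc ha hb hab habD hne
  obtain ⟨u, hu, -, hub, hua, hfr, -⟩ := swap_exists hD ha hb hx hab habD hxa hxb
  exact ⟨u, hu, hub, hua, hfr⟩

/-- S5047, in terms of SameOdd -/
theorem exists_three [Finite G] (hD : IsRootInvolutionSet D) (hc : IsConnectedSet (OddAdj D) D) {a b : G} (ha : a ∈ D)
    (hb : b ∈ D) (hab : Commute a b) (habD : a * b ∈ D) (hne : ¬ SameOdd D a b) :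
    ∃ x ∈ D, Fr b x ∧ orderOf (a * x) = 3 := by
  obtain ⟨u, hu, hub, hua, hfr⟩ := swap_of_not_same hD hc ha hb hab habD hne
  -- the line {u, b, u b}
  have haa := sq hD ha
  have hbb := sq hD hb
  have huu := sq hD hu
  have haua : a * u * a = u * b := by
    have h1 : u * (a * u * a) = u * (u * b) := by
      rw [← mul_assoc u u b, huu, one_mul]
      have : u * (a * u * a) = (u * a * u) * a := by simp only [mul_assoc]
      rw [this, hua, hab.eq, mul_assoc, haa, mul_one]
    exact mul_left_cancel h1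
  have hubD : u * b ∈ D := by rw [← haua]; exact cj hD hu ha
  have hns2 : ¬ SameOdd D b u := by
    intro h
    exact hfr.not_comm hD hu ha (comm_of_same hD hc hb hu ha h hab).symm
  have hbuD : b * u ∈ D := by rw [hub.symm.eq]; exact hubD
  obtain ⟨w, hw, hwu, hwb, hwfr⟩ := swap_of_not_same hD hc hb hu hub.symm hbuD hns2
  have hww := sq hD hw
  refine ⟨w, hw, hwfr.symm hD hw hb, ?_⟩
  -- theta = a w acts as a 3-cycle on <u, b>
  set θ := a * w with hθ
  have hθinv : θ⁻¹ = w * a := by rw [hθ, mul_inv_rev, inv_eq hD ha, inv_eq hD hw]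
  -- action: θ b θ⁻¹ = a (w b w) a = a b u a = b * (a u a) = b * (u b) = u
  have actb : θ * b * θ⁻¹ = u := by
    rw [hθinv, hθ]
    have : a * w * b * (w * a) = a * (w * b * w) * a := by simp only [mul_assoc]
    rw [this, hwb]
    have : a * (b * u) * a = (a * b * a) * (a * u * a) := by simp only [mul_assoc, sqx hD ha]
    rw [this, haua, hab.eq, mul_assoc b a a, haa, mul_one, hub.eq, ← mul_assoc, hbb, one_mul]
  have actu : θ * u * θ⁻¹ = u * b := by
    rw [hθinv, hθ]
    have : a * w * u * (w * a) = a * (w * u * w) * a := by simp only [mul_assoc]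
    rw [this, hwu.eq, mul_assoc u w w, hww, mul_one, haua]
  have actub : θ * (u * b) * θ⁻¹ = b := by
    have : θ * (u * b) * θ⁻¹ = (θ * u * θ⁻¹) * (θ * b * θ⁻¹) := by group
    rw [this, actu, actb, mul_assoc, ← hub.eq, ← mul_assoc, huu, one_mul]
  have h3b : Commute (θ ^ 3) b := by
    have e : θ ^ 3 * b * (θ ^ 3)⁻¹ = θ * (θ * (θ * b * θ⁻¹) * θ⁻¹) * θ⁻¹ := by
      simp only [pow_succ, pow_zero, one_mul, mul_inv_rev, mul_assoc]
    rw [actb, actu, actub] at e
    exact mul_inv_eq_iff_eq_mul.mp e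
  -- θ has odd order
  have hθne : θ ≠ 1 := by
    intro h
    rw [h] at actb
    simp at actb
    rw [← actb] at hfr
    exact hfr.not_comm hD hb ha hab.symm
  have hod : Od a w := by
    rcases trich hD ha hw with h | h | h
    · exfalso
      have h2 : θ ^ 2 = 1 := by
        rw [hθ, pow_two, h.eq, mul_assoc, ← mul_assoc a w, h.eq, mul_assoc, haa, mul_one, hww]
      have h3 : θ ^ 2 * b * (θ ^ 2)⁻¹ = u * b := by
        have e : θ ^ 2 * b * (θ ^ 2)⁻¹ = θ * (θ * b * θ⁻¹) * θ⁻¹ := by
          simp only [pow_succ, pow_zero, one_mul, mul_inv_rev, mul_assoc]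
        rw [e, actb, actu]
      rw [h2] at h3
      simp at h3
      exact ne_one hD hu h3
    · exact h
    · exfalso
      have h4 : θ ^ 4 = 1 := by
        have := pow_orderOf_eq_one (a * w)
        rwa [show orderOf (a * w) = 4 from h] at this
      have h3 : θ ^ 4 * b * (θ ^ 4)⁻¹ = u := by
        have e : θ ^ 4 * b * (θ ^ 4)⁻¹ = θ * (θ ^ 3 * b * (θ ^ 3)⁻¹) * θ⁻¹ := by
          simp only [pow_succ, pow_zero, one_mul, mul_inv_rev, mul_assoc]
        rw [e, h3b.eq, mul_assoc b, mul_inv_cancel, mul_one, actb]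
      rw [h4] at h3
      simp at h3
      rw [← h3] at hfr
      exact hfr.not_comm hD hb ha hab.symm
  -- suppose θ^3 ≠ 1
  have h31 : θ ^ 3 = 1 := by
    by_contra h3
    set a1 := θ ^ 3 * a * (θ ^ 3)⁻¹ with ha1
    have ha1D : a1 ∈ D := hD.conj_mem a ha _
    have ha1b : a1 * b ∈ D := by
      have : a1 * b = θ ^ 3 * (a * b) * (θ ^ 3)⁻¹ := by
        rw [ha1]
        have e : θ ^ 3 * (a * b) * (θ ^ 3)⁻¹ = θ ^ 3 * a * (b * (θ ^ 3)⁻¹) := by simp only [mul_assoc]
        rw [e, h3b.inv_left.symm.eq]; simp only [mul_assoc]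
      rw [this]; exact hD.conj_mem _ habD _
    -- a θ a = θ⁻¹
    have hinv : a * θ * a = θ⁻¹ := by rw [hθinv, hθ]; simp only [mul_assoc, sqx hD ha]
    have hinv3 : a * θ ^ 3 * a = (θ ^ 3)⁻¹ := by
      have e : a * θ ^ 3 * a⁻¹ = (a * θ * a⁻¹) ^ 3 := by rw [conj_pow]
      rw [inv_eq hD ha, hinv, inv_pow] at e
      exact e
    have haa1 : a * a1 = (θ ^ 6)⁻¹ := by
      have e : a * a1 = (a * θ ^ 3 * a) * (θ ^ 3)⁻¹ := by rw [ha1]; simp only [mul_assoc]
      rw [e, hinv3, ← mul_inv_rev, ← pow_add]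
    have hθodd : Odd (orderOf θ) := hod.2
    have hne6 : θ ^ 6 ≠ 1 := by
      intro h6
      apply h3
      have h7 : Odd (orderOf (θ ^ 3)) := Odd.of_dvd_nat hθodd (orderOf_pow_dvd _)
      exact one_of_odd h7 (k := 1) (by rw [pow_one, ← pow_mul]; exact h6)
    have hod1 : Od a a1 := by
      refine ⟨?_, ?_⟩
      · intro h
        rw [← h, haa] at haa1
        exact hne6 (inv_eq_one.mp haa1.symm)
      · rw [haa1, orderOf_inv]; exact Odd.of_dvd_nat hθodd (orderOf_pow_dvd _)
    have hba1 : Commute b a1 := by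
      rw [ha1]
      exact (h3b.symm.mul_right hab.symm).mul_right h3b.symm.inv_right
    exact line_aux hD ha1D ha ha1b hod1 hbb (ne_one hD hb) hba1 hab.symm rfl
  exact orderOf_eq_prime h31 hθne

/-- S5047 -/
theorem thm5047 [Finite G] (hD : IsRootInvolutionSet D) (hc : IsConnectedSet (OddAdj D) D) {a b : G} (ha : a ∈ D)
    (hb : b ∈ productPartners D a) (hbE : b ∉ sameCommutingClass D a) : ∃ x ∈ fourPartners D b, orderOf (a * x) = 3 := by
  obtain ⟨⟨hbD, hba, hne⟩, hbaD⟩ := hb
  have hab : Commute a b := (show Commute b a from hba).symm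
  have hns : ¬ SameOdd D a b := fun h => hbE ⟨hbD, (same_iff hD hc ha hbD).mpr h⟩
  obtain ⟨x, hx, hfr, h3⟩ := exists_three hD hc ha hbD hab (by rw [hab.eq]; exact hbaD) hns
  exact ⟨x, ⟨hx, hfr⟩, h3⟩

/-! ### Normal subgroups -/

/-- a normal subgroup without members of D is centralized by D modulo O_2 -/
theorem normal_centralized [Finite G] (hD : IsRootInvolutionSet D) (hX : ∀ a ∈ D, ∃ b ∈ D, Commute a b ∧ a * b ∈ D)
    {N : Subgroup G} (hN : N.Normal) (hND : ∀ d ∈ D, d ∉ N) {a : G} (ha : a ∈ D) {n : G} (hn : n ∈ N) :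
    Commute a (n * a * n⁻¹) := by
  set x := n * a * n⁻¹ with hx
  have hxD : x ∈ D := hD.conj_mem a ha n
  have hax : a * x ∈ N := by
    have : a * x = (a * n * a⁻¹) * n⁻¹ := by rw [hx, inv_eq hD ha]; simp only [mul_assoc]
    rw [this]; exact mul_mem (hN.conj_mem n hn a) (inv_mem hn)
  rcases trich hD ha hxD with h | h | h
  · exact h
  · exfalso
    obtain ⟨b, hb, hab, habD⟩ := hX a ha
    have hxa := h.symm hD ha hxD
    -- no product of x with b, ab is of odd order
    have key : ∀ b ∈ D, a * b ∈ D → Commute a b → ¬ Od x b := by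
      intro b hb habD hab hxb
      -- x b = (x a)(a b), modulo N it is ab, of order 2
      have h1 : (x * b) * (x * b) ∈ N := by
        have h2 : x * b * (x * b) = (x * a) * ((a * b) * (x * a) * (a * b)⁻¹) * ((a * b) * (a * b)) := by
          rw [mul_inv_rev, inv_eq hD ha, inv_eq hD hb]
          simp only [mul_assoc, sqx hD ha, sqx hD hb]
        have h3 : (a * b) * (a * b) = 1 := sq hD habD
        rw [h2, h3, mul_one]
        have h4 : x * a ∈ N := by
          have : x * a = (a * x)⁻¹ := by rw [mul_inv_rev, inv_eq hD ha, inv_eq hD hxD]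
          rw [this]; exact inv_mem hax
        exact mul_mem h4 (hN.conj_mem _ h4 _)
      -- odd order: x b ∈ N
      have h5 : x * b ∈ N := by
        obtain ⟨k, hk⟩ := hxb.2
        have h6 := pow_orderOf_eq_one (x * b)
        rw [hk, pow_succ, pow_mul] at h6
        have h7 : ((x * b) ^ 2) ^ k ∈ N := by
          apply pow_mem; rw [pow_two]; exact h1
        have h8 : x * b = (((x * b) ^ 2) ^ k)⁻¹ := eq_inv_of_mul_eq_one_right h6
        rw [h8]; exact inv_mem h7
      apply hND _ habD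
      have : a * b = (a * x) * (x * b) := by simp only [mul_assoc, sqx hD hxD]
      rw [this]; exact mul_mem hax h5
    have hcomm2 : Commute b (a * b) := hab.symm.mul_right (Commute.refl b)
    have e : b * (a * b) = a := by rw [hab.eq, sqx hD hb]
    have hxa' : Od x (b * (a * b)) := by rw [e]; exact hxa
    have hab2 : a * (a * b) ∈ D := by rw [sqx hD ha]; exact hb
    rcases line_od hD hb habD (by rw [e]; exact ha) hcomm2 hxD hxa' with h1 | h1
    · exact key b hb habD hab h1
    · exact key (a * b) habD hab2 ((Commute.refl a).mul_right hab) h1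
  · exfalso
    obtain ⟨hz, -⟩ := cm_facts hD ha hxD h
    apply hND _ hz
    have : cm a x = (a * x) * (a * x) := by unfold cm; simp only [mul_assoc]
    rw [this]; exact mul_mem hax hax

theorem commutator_le_pCore [Finite G] (hD : IsRootInvolutionSet D) (hX : ∀ a ∈ D, ∃ b ∈ D, Commute a b ∧ a * b ∈ D)
    {N : Subgroup G} (hN : N.Normal) (hND : ∀ d ∈ D, d ∉ N) {a : G} (ha : a ∈ D) {n : G} (hn : n ∈ N) :
    a * (n * a * n⁻¹) ∈ pCore 2 G := by
  haveI := hN
  set S : Set G := {x | ∃ m ∈ N, x = m * a * m⁻¹} with hS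
  have hSD : ∀ x ∈ S, x ∈ D := by rintro x ⟨m, -, rfl⟩; exact hD.conj_mem a ha m
  have hcomm : ∀ x ∈ S, ∀ y ∈ S, Commute x y := by
    rintro x ⟨m, hm, rfl⟩ y ⟨k, hk, rfl⟩
    have h1 := normal_centralized hD hX hN hND ha (N.mul_mem (N.inv_mem hm) hk)
    have h2 := h1.map (MulAut.conj m).toMonoidHom
    simp only [MulEquiv.toMonoidHom_eq_coe, MonoidHom.coe_coe, MulAut.conj_apply] at h2
    have e : m * (m⁻¹ * k * a * (m⁻¹ * k)⁻¹) * m⁻¹ = k * a * k⁻¹ := by group
    rwa [e] at h2
  have hp : IsPGroup 2 ↥(Subgroup.closure S) := by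
    refine isPGroup_closure' (fun x hx => sq hD (hSD x hx)) ?_ ?_
    · intro x hx y hy
      rw [(hcomm y hy x hx).eq, mul_assoc, sq hD (hSD y hy), mul_one]; exact hx
    · intro x hx y hy
      exact pow_four hD (hSD x hx) (hSD y hy) (fun h => h.not_comm hD (hSD x hx) (hSD y hy) (hcomm x hx y hy))
  set K : Subgroup G := Subgroup.closure S ⊓ N with hK
  have hKp : IsPGroup 2 ↥(K.subgroupOf N) := (hp.to_le inf_le_left).comap_subtype
  have hKn : (K.subgroupOf N).Normal := by
    constructor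
    rintro ⟨x, hx⟩ hxK ⟨g, hg⟩
    rw [Subgroup.mem_subgroupOf] at hxK ⊢
    refine ⟨?_, N.mul_mem (N.mul_mem hg hx) (N.inv_mem hg)⟩
    have hx1 : x ∈ Subgroup.closure S := hxK.1
    show g * x * g⁻¹ ∈ Subgroup.closure S
    refine Subgroup.closure_induction (p := fun (x : G) _ => g * x * g⁻¹ ∈ Subgroup.closure S) ?_ ?_ ?_ ?_ hx1
    · rintro x ⟨m, hm, rfl⟩
      exact Subgroup.subset_closure ⟨g * m, mul_mem hg hm, by group⟩
    · simp
    · intro x y _ _ hx hy
      have : g * (x * y) * g⁻¹ = g * x * g⁻¹ * (g * y * g⁻¹) := by group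
      rw [this]; exact mul_mem hx hy
    · intro x _ hx
      have : g * x⁻¹ * g⁻¹ = (g * x * g⁻¹)⁻¹ := by group
      rw [this]; exact inv_mem hx
  have h1 := Solv.le_pCore hKn hKp
  have h2 := (Subgroup.map_mono (f := N.subtype) h1).trans (Solv.map_subtype_pCore_le 2 N)
  rw [Subgroup.subgroupOf_map_subtype, inf_eq_left.mpr (inf_le_right : K ≤ N)] at h2
  apply h2
  refine ⟨?_, ?_⟩
  · refine mul_mem (Subgroup.subset_closure ⟨1, one_mem _, by group⟩) (Subgroup.subset_closure ⟨n, hn, rfl⟩)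
  · have : a * (n * a * n⁻¹) = (a * n * a⁻¹) * n⁻¹ := by rw [inv_eq hD ha]; simp only [mul_assoc]
    rw [this]; exact N.mul_mem (hN.conj_mem n hn a) (N.inv_mem hn)

theorem mem_twoZCore {g : G} : g ∈ twoZCore G ↔ ∀ x : G, x * g * x⁻¹ * g⁻¹ ∈ pCore 2 G := by
  unfold twoZCore
  rw [Subgroup.mem_comap, Subgroup.mem_center_iff]
  constructor
  · intro h x
    have h1 := h (QuotientGroup.mk' (pCore 2 G) x)
    rw [← QuotientGroup.eq_one_iff]
    have h2 : ((x * g * x⁻¹ * g⁻¹ : G) : G ⧸ pCore 2 G) =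
        QuotientGroup.mk' (pCore 2 G) x * QuotientGroup.mk' (pCore 2 G) g * (QuotientGroup.mk' (pCore 2 G) x)⁻¹ *
          (QuotientGroup.mk' (pCore 2 G) g)⁻¹ := rfl
    rw [h2, h1]; group
  · intro h y
    obtain ⟨x, rfl⟩ := QuotientGroup.mk'_surjective _ y
    have h1 := h x
    rw [← QuotientGroup.eq_one_iff] at h1
    have h2 : ((x * g * x⁻¹ * g⁻¹ : G) : G ⧸ pCore 2 G) =
        QuotientGroup.mk' (pCore 2 G) x * QuotientGroup.mk' (pCore 2 G) g * (QuotientGroup.mk' (pCore 2 G) x)⁻¹ *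
          (QuotientGroup.mk' (pCore 2 G) g)⁻¹ := rfl
    rw [h2] at h1
    have h3 := mul_inv_eq_one.mp h1
    exact mul_inv_eq_iff_eq_mul.mp h3

theorem le_twoZCore [Finite G] (hD : IsRootInvolutionSet D) (hX : ∀ a ∈ D, ∃ b ∈ D, Commute a b ∧ a * b ∈ D)
    {N : Subgroup G} (hN : N.Normal) (hND : ∀ d ∈ D, d ∉ N) : N ≤ twoZCore G := by
  intro n hn
  rw [mem_twoZCore]
  have key : ∀ x ∈ Subgroup.closure D, ∀ n ∈ N, x * n * x⁻¹ * n⁻¹ ∈ pCore 2 G := by
    intro x hx
    refine Subgroup.closure_induction_left (p := fun (x : G) _ => ∀ n ∈ N, x * n * x⁻¹ * n⁻¹ ∈ pCore 2 G) ?_ ?_ ?_ hx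
    · intro n _; simp
    · intro d hd y _ hy n hn
      have h1 := hy n hn
      have h2 := commutator_le_pCore hD hX hN hND hd (n := n) hn
      have e : d * y * n * (d * y)⁻¹ * n⁻¹ = d * (y * n * y⁻¹ * n⁻¹) * d⁻¹ * (d * (n * d * n⁻¹)) := by
        rw [mul_inv_rev, inv_eq hD hd]
        simp only [mul_assoc, sqx hD hd, inv_mul_cancel_left]
      rw [e]
      exact mul_mem ((Solv.pCore_normal 2).conj_mem _ h1 d) h2
    · intro d hd y _ hy n hn
      have h1 := hy n hn
      have h2 := commutator_le_pCore hD hX hN hND hd (n := n) hn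
      rw [inv_eq hD hd]
      have e : d * y * n * (d * y)⁻¹ * n⁻¹ = d * (y * n * y⁻¹ * n⁻¹) * d⁻¹ * (d * (n * d * n⁻¹)) := by
        rw [mul_inv_rev, inv_eq hD hd]
        simp only [mul_assoc, sqx hD hd, inv_mul_cancel_left]
      rw [e]
      exact mul_mem ((Solv.pCore_normal 2).conj_mem _ h1 d) h2
  intro x
  exact key x (by rw [hD.generates]; exact Subgroup.mem_top x) n hn

theorem partner_all (hD : IsRootInvolutionSet D) (h1 : OneClass D) (hDD : (D ∩ commutingProducts D).Nonempty) :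
    ∀ a ∈ D, ∃ b ∈ D, Commute a b ∧ a * b ∈ D := by
  obtain ⟨x, hx, a, ha, b, hb, hab, hab1, rfl⟩ := hDD
  intro c hc
  obtain ⟨g, rfl⟩ := h1 a ha c hc
  refine ⟨g * b * g⁻¹, hD.conj_mem b hb g, ?_, ?_⟩
  · have := (show Commute a b from hab).map (MulAut.conj g).toMonoidHom
    simpa only [MulEquiv.toMonoidHom_eq_coe, MonoidHom.coe_coe, MulAut.conj_apply] using this
  · have : g * a * g⁻¹ * (g * b * g⁻¹) = g * (a * b) * g⁻¹ := by group
    rw [this]; exact hD.conj_mem _ hx g

/-- S5048 -/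
theorem thm5048 [Finite G] (hD : IsRootInvolutionSet D) (hc : IsConnectedSet (OddAdj D) D)
    (hDD : (D ∩ commutingProducts D).Nonempty) :
    solvableRadical G = twoZCore G ∧ IsSimpleGroup (G ⧸ twoZCore G) := by
  have h1 := oneClass_of_connected hD hc
  have hX := partner_all hD h1 hDD
  obtain ⟨d0, hd0, -⟩ := hDD
  -- members are not in twoZCore
  have hDZ : ∀ d ∈ D, d ∉ twoZCore G := by
    intro d hd hdZ
    obtain ⟨b, hb, hdb, hdbD⟩ := hX d hd
    have hne : d ≠ b := by
      rintro rfl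
      rw [sq hD hd] at hdbD
      exact ne_one hD hdbD rfl
    obtain ⟨x, hx, hdx⟩ : ∃ x ∈ D, Od d x := by
      rcases Relation.ReflTransGen.cases_head (hc d hd b hb) with h3 | ⟨c, h3, -⟩
      · exact absurd h3 hne
      · rw [oddAdj_iff] at h3; exact ⟨c, h3.2.1, h3.2.2⟩
    rw [mem_twoZCore] at hdZ
    have h2 := hdZ x
    have h3 : (x * d) * (x * d) ∈ pCore 2 G := by
      have : (x * d) * (x * d) = x * d * x⁻¹ * d⁻¹ := by
        rw [inv_eq hD hx, inv_eq hD hd]; simp only [mul_assoc]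
      rw [this]; exact h2
    obtain ⟨k, hk⟩ := (Solv.pCore_isPGroup 2) ⟨_, h3⟩
    have hk' : ((x * d) * (x * d)) ^ 2 ^ k = 1 := congrArg Subtype.val hk
    rw [← pow_two, ← pow_mul, ← pow_succ'] at hk'
    have hxd := hdx.symm hD hd hx
    have h4 := one_of_odd hxd.2 hk'
    apply hxd.1
    have := eq_inv_of_mul_eq_one_left h4
    rwa [inv_eq hD hd] at this
  have htop : ∀ N : Subgroup G, N.Normal → (∃ d ∈ D, d ∈ N) → N = ⊤ := by
    rintro N hN ⟨d, hd, hdN⟩
    rw [eq_top_iff, ← hD.generates, Subgroup.closure_le]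
    intro x hx
    obtain ⟨g, rfl⟩ := h1 d hd x hx
    exact hN.conj_mem d hdN g
  have hsimple : IsSimpleGroup (G ⧸ twoZCore G) := by
    have hnt : Nontrivial (G ⧸ twoZCore G) := by
      refine ⟨((d0 : G) : G ⧸ twoZCore G), 1, ?_⟩
      intro h
      rw [QuotientGroup.eq_one_iff] at h
      exact hDZ d0 hd0 h
    refine { hnt with eq_bot_or_eq_top_of_normal := ?_ }
    intro N hN
    have hN' : (N.comap (QuotientGroup.mk' (twoZCore G))).Normal := Subgroup.Normal.comap hN _
    by_cases h : ∃ d ∈ D, d ∈ N.comap (QuotientGroup.mk' (twoZCore G))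
    · right
      have h2 := htop _ hN' h
      rw [eq_top_iff]
      intro y _
      obtain ⟨x, rfl⟩ := QuotientGroup.mk'_surjective _ y
      have : x ∈ N.comap (QuotientGroup.mk' (twoZCore G)) := by rw [h2]; exact Subgroup.mem_top x
      exact this
    · left
      push Not at h
      have h2 := le_twoZCore hD hX hN' h
      rw [eq_bot_iff]
      intro y hy
      obtain ⟨x, rfl⟩ := QuotientGroup.mk'_surjective _ y
      have h3 := h2 (show x ∈ N.comap (QuotientGroup.mk' (twoZCore G)) from hy)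
      rw [Subgroup.mem_bot]
      exact (QuotientGroup.eq_one_iff x).mpr h3
  refine ⟨?_, hsimple⟩
  -- G is not solvable
  have hns : ¬ Group.IsSolvable G := by
    intro hs
    haveI := hs
    haveI := hsimple
    haveI : Group.IsSolvable (G ⧸ twoZCore G) := inferInstance
    have hcm : ∀ a b : G ⧸ twoZCore G, a * b = b * a := by
      have := (IsSimpleGroup.comm_iff_isSolvable (G := G ⧸ twoZCore G)).mpr this
      exact this
    letI : CommGroup (G ⧸ twoZCore G) := { (inferInstance : Group (G ⧸ twoZCore G)) with mul_comm := hcm }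
    have hprime : (Nat.card (G ⧸ twoZCore G)).Prime := IsSimpleGroup.prime_card
    obtain ⟨b, hb, hdb, hdbD⟩ := hX d0 hd0
    set f := QuotientGroup.mk' (twoZCore G) with hf
    have ho : ∀ d ∈ D, orderOf (f d) = 2 := by
      intro d hd
      refine orderOf_eq_prime ?_ ?_
      · rw [← map_pow, pow_two, sq hD hd, map_one]
      · intro h
        exact hDZ d hd ((QuotientGroup.eq_one_iff d).mp h)
    have hcard : Nat.card (G ⧸ twoZCore G) = 2 := by
      have h2 : 2 ∣ Nat.card (G ⧸ twoZCore G) := by rw [← ho d0 hd0]; exact orderOf_dvd_natCard _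
      exact ((Nat.prime_dvd_prime_iff_eq Nat.prime_two hprime).mp h2).symm
    have h3 : f (d0 * b) = 1 := by
      -- group of order 2
      have h4 : ∀ y : G ⧸ twoZCore G, y ≠ 1 → y = f d0 := by
        intro y hy
        by_contra hne
        have h5 : ({1, f d0, y} : Set (G ⧸ twoZCore G)).ncard ≤ Nat.card (G ⧸ twoZCore G) := by
          rw [← Set.ncard_univ]; exact Set.ncard_le_ncard (Set.subset_univ _) (Set.toFinite _)
        have h6 : (f d0) ≠ 1 := by
          intro h; have := ho d0 hd0; rw [h, orderOf_one] at this; omega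
        have h7 : ({1, f d0, y} : Set (G ⧸ twoZCore G)).ncard = 3 := by
          rw [Set.ncard_eq_three]; exact ⟨1, f d0, y, h6.symm, hy.symm, fun h => hne h.symm, rfl⟩
        omega
      have h8 : f b ≠ 1 := by
        intro h; have := ho b hb; rw [h, orderOf_one] at this; omega
      rw [map_mul, h4 (f b) h8, ← map_mul, sq hD hd0, map_one]
    exact hDZ _ hdbD ((QuotientGroup.eq_one_iff _).mp h3)
  apply le_antisymm
  · refine sSup_le ?_
    rintro N ⟨hN, hNs⟩
    refine le_twoZCore hD hX hN ?_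
    intro d hd hdN
    have := htop N hN ⟨d, hd, hdN⟩
    subst this
    haveI := hNs
    exact hns (Group.isSolvable_of_surjective (f := (Subgroup.topEquiv (G := G)).toMonoidHom) Subgroup.topEquiv.surjective)
  · refine le_sSup ⟨twoZCore_normal G, ?_⟩
    -- twoZCore is solvable
    haveI : Group.IsNilpotent ↥(pCore 2 G) := (Solv.pCore_isPGroup 2).isNilpotent
    haveI : Group.IsSolvable ↥(pCore 2 G) := inferInstance
    have hle : pCore 2 G ≤ twoZCore G := by
      intro g hg
      rw [mem_twoZCore]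
      intro x
      exact mul_mem ((Solv.pCore_normal 2).conj_mem g hg x) (inv_mem hg)
    let φ : ↥(twoZCore G) →* ↥(Subgroup.center (G ⧸ pCore 2 G)) :=
      ((QuotientGroup.mk' (pCore 2 G)).comp (twoZCore G).subtype).codRestrict _ (fun x => x.2)
    haveI : Group.IsSolvable ↥(Subgroup.center (G ⧸ pCore 2 G)) :=
      Group.isSolvable_of_comm (fun a b => Subtype.ext ((Subgroup.mem_center_iff.mp b.2) a))
    refine Group.isSolvable_of_ker_le_range (Subgroup.inclusion hle) φ ?_
    intro x hx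
    have h1 : (QuotientGroup.mk' (pCore 2 G)) (x : G) = 1 := congrArg Subtype.val hx
    exact ⟨⟨(x : G), (QuotientGroup.eq_one_iff _).mp h1⟩, Subtype.ext rfl⟩

end Cfsg.Agent.RI
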